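import Mathlib
import Cfsg.Agent.Lib.Helper96.HallSymStmt

/-! S2536 piece EK1 (helper57): first step of the binomial lemma. -/

set_option autoImplicit false

namespace Cfsg.Agent.Lib.Helper57.HSEK1

open Equiv Cfsg.Agent.Lib.Helper96.HallSymStmt

theorem two_mul_le_of_dvd {c q : ℕ} (hq : q ∣ c) (hne : q ≠ c) (hc : c ≠ 0) : 2 * q ≤ c := by
  obtain ⟨k, rfl⟩ := hq
  have hk0 : k ≠ 0 := by rintro rfl; simp at hc
  have hk1 : k ≠ 1 := by rintro rfl; simp at hne
  have h2 : 2 ≤ k := by omega
  calc 2 * q = q * 2 := by ring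
    _ ≤ q * k := Nat.mul_le_mul_left q h2

theorem df2 (n : ℕ) : n.descFactorial 2 = (n - 1) * n := by
  rw [Nat.descFactorial_succ, Nat.descFactorial_one]

theorem main : EK1' := by
  intro hTL a b ha hab hNS
  have hb : 2 ≤ b := le_trans ha hab
  have hn : (a + b).Prime := by
    by_contra hnp
    have hpf : ∀ q : ℕ, q.Prime → q ∣ a + b → q ≤ b := by
      intro q hq hqd
      have hne : q ≠ a + b := fun h => hnp (h ▸ hq)
      have := two_mul_le_of_dvd hqd hne (by omega)
      omega
    have h := hTL a b hNS 1 0 (by omega) (a + b) hpf (by simp)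
    have h' : a + b ∣ a := by simpa using h
    have := Nat.le_of_dvd (by omega) h'
    omega
  have hb1 : (b + 1).Prime := by
    by_contra hnp
    have hpf : ∀ q : ℕ, q.Prime → q ∣ b + 1 → q ≤ b := by
      intro q hq hqd
      have hne : q ≠ b + 1 := fun h => hnp (h ▸ hq)
      have := two_mul_le_of_dvd hqd hne (by omega)
      omega
    have h := hTL a b hNS 0 1 (by omega) (b + 1) hpf (by simp)
    have h' : b + 1 ∣ a := by simpa using h
    have := Nat.le_of_dvd (by omega) h'
    omega
  have hbeven : Even b := by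
    rcases hb1.eq_two_or_odd' with h | h
    · omega
    · rcases h with ⟨k, hk⟩
      exact ⟨k, by omega⟩
  have haodd : Odd a := by
    rcases hn.eq_two_or_odd' with h | h
    · omega
    · rcases h with ⟨k, hk⟩
      rcases hbeven with ⟨l, hl⟩
      exact ⟨k - l, by omega⟩
  have ha3 : 3 ≤ a := by
    rcases haodd with ⟨k, hk⟩
    omega
  have h3 : a + b - 1 ∣ a * (a - 1) := by
    have hpf : ∀ q : ℕ, q.Prime → q ∣ a + b - 1 → q ≤ b := by
      intro q hq hqd
      have hne : q ≠ a + b - 1 := by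
        intro h
        have h2 : 2 ∣ a + b - 1 := by
          rcases haodd with ⟨k, hk⟩
          rcases hbeven with ⟨l, hl⟩
          exact ⟨k + l, by omega⟩
        rw [← h] at h2
        have := (Nat.prime_dvd_prime_iff_eq Nat.prime_two hq).mp h2
        omega
      have := two_mul_le_of_dvd hqd hne (by omega)
      omega
    have h := hTL a b hNS 2 0 (by omega) (a + b - 1) hpf (by
      rw [df2]
      exact Dvd.dvd.mul_right (dvd_mul_right _ _) _)
    rw [show 2 + 0 = 2 from rfl, df2] at h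
    rwa [mul_comm] at h
  have h4 : b + 2 ∣ a * (a - 1) := by
    have hpf : ∀ q : ℕ, q.Prime → q ∣ b + 2 → q ≤ b := by
      intro q hq hqd
      have hne : q ≠ b + 2 := by
        intro h
        have h2 : 2 ∣ b + 2 := by
          rcases hbeven with ⟨l, hl⟩
          exact ⟨l + 1, by omega⟩
        rw [← h] at h2
        have := (Nat.prime_dvd_prime_iff_eq Nat.prime_two hq).mp h2
        omega
      have := two_mul_le_of_dvd hqd hne (by omega)
      omega
    have h := hTL a b hNS 0 2 (by omega) (b + 2) hpf (by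
      rw [df2]
      exact Dvd.dvd.mul_left (dvd_mul_left _ _) _)
    rw [show 0 + 2 = 2 from rfl, df2] at h
    rwa [mul_comm] at h
  obtain ⟨c, hc⟩ : ∃ c, a = c + 3 := ⟨a - 3, by omega⟩
  obtain ⟨d, hd⟩ : ∃ d, b = a + d := ⟨b - a, by omega⟩
  have hA : a + b - 1 = 2 * c + d + 5 := by omega
  have hB : b + 2 = c + d + 5 := by omega
  have hP : a * (a - 1) = (c + 3) * (c + 2) := by
    have : a - 1 = c + 2 := by omega
    rw [this, hc]
  rw [hA, hP] at h3
  rw [hB, hP] at h4
  have hg6 : Nat.gcd (2 * c + d + 5) (c + d + 5) ∣ 6 := by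
    have hgA := Nat.gcd_dvd_left (2 * c + d + 5) (c + d + 5)
    have hgB := Nat.gcd_dvd_right (2 * c + d + 5) (c + d + 5)
    have hgc : Nat.gcd (2 * c + d + 5) (c + d + 5) ∣ c := by
      have := Nat.dvd_sub hgA hgB
      have e : (2 * c + d + 5) - (c + d + 5) = c := by omega
      rwa [e] at this
    have h1 : Nat.gcd (2 * c + d + 5) (c + d + 5) ∣ c * (c + 5) + 6 := by
      have e : c * (c + 5) + 6 = (c + 3) * (c + 2) := by ring
      rw [e]; exact hgA.trans h3
    exact (Nat.dvd_add_right (hgc.mul_right (c + 5))).mp h1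
  have hdiv : (2 * c + d + 5) * (c + d + 5) ∣ 6 * ((c + 3) * (c + 2)) := by
    rw [← Nat.gcd_mul_lcm]
    exact Nat.mul_dvd_mul hg6 (Nat.lcm_dvd h3 h4)
  obtain ⟨k, hk⟩ := hdiv
  refine ⟨hn, hb1, haodd, ?_⟩
  rw [hA, hB, hP]
  have hk3 : k < 3 := by
    by_contra hcon
    push Not at hcon
    have h5 : (2 * c + d + 5) * (c + d + 5) * 3 ≤ (2 * c + d + 5) * (c + d + 5) * k :=
      Nat.mul_le_mul_left _ hcon
    nlinarith [Nat.zero_le (c * d), Nat.zero_le (d * d), Nat.zero_le c, Nat.zero_le d]
  have hk0 : k ≠ 0 := by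
    rintro rfl
    simp at hk
  have hk1 : 1 ≤ k := Nat.one_le_iff_ne_zero.mpr hk0
  clear hk0
  interval_cases k
  · left
    rw [mul_one] at hk
    exact hk.symm
  · right
    rw [hk]; ring

end Cfsg.Agent.Lib.Helper57.HSEK1
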