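import Mathlib
import Cfsg.Agent.Lib.Helper73.BG14Stmt

/-! S1375 piece FH, core part (helper57): for a maximal subgroup `N` of a simple group whose
`σ`-core is a nilpotent Hall `σ(N)`-subgroup, `N_σ = N_F`. -/

set_option autoImplicit false

namespace Cfsg.Agent.Lib.Helper57.BG14FHCore

open Cfsg

universe u

/-- a prime dividing the order of a normal nilpotent Hall subgroup of a maximal subgroup `N` of a
simple group lies in `σ(N)` -/
theorem mem_sigma_of_normal_hall {G : Type u} [Group G] [Finite G] (hsimple : IsSimpleGroup G)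
    (N : Subgroup G) (hN : IsCoatom N) (K : Subgroup N) (hKn : K.Normal)
    (hKnil : Group.IsNilpotent K) (hKcop : (Nat.card K).Coprime K.index)
    (p : ℕ) (hp : p.Prime) (hpK : p ∣ Nat.card K) : p ∈ sigma N := by
  have hfact : Fact p.Prime := ⟨hp⟩
  have hpN : p ∣ Nat.card N := hpK.trans (Subgroup.card_subgroup_dvd_card K)
  refine ⟨hp, hpN, ?_⟩
  have T : Sylow p K := default
  have hTn : (T : Subgroup K).Normal := inferInstance
  have hTc : (T : Subgroup K).Characteristic := Sylow.characteristic_of_normal T hTn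
  have hT'n : ((T : Subgroup K).map K.subtype).Normal :=
    ConjAct.normal_of_characteristic_of_normal
  have hpg : IsPGroup p ((T : Subgroup K).map K.subtype) := T.isPGroup'.map K.subtype
  have hidx : ¬ p ∣ ((T : Subgroup K).map K.subtype).index := by
    rw [Subgroup.index_map_subtype]
    intro h
    rcases (Nat.Prime.dvd_mul hp).mp h with h | h
    · exact T.not_dvd_index h
    · have h1 := Nat.dvd_gcd hpK h
      rw [Nat.Coprime] at hKcop
      rw [hKcop] at h1
      exact hp.one_lt.ne' (Nat.dvd_one.mp h1)
  have hTne : (T : Subgroup K) ≠ ⊥ := T.ne_bot_of_dvd_card hpK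
  let P : Sylow p N := hpg.toSylow hidx
  have hP : (P : Subgroup N) = (T : Subgroup K).map K.subtype := IsPGroup.toSylow_coe _ _
  refine ⟨P, ?_⟩
  have hPn : (P : Subgroup N).Normal := hP ▸ hT'n
  have hNQ : N ≤ Subgroup.normalizer ((((P : Subgroup N).map N.subtype : Subgroup G)) : Set G) := by
    intro n hn
    rw [Subgroup.mem_normalizer_iff]
    intro h
    constructor
    · rintro ⟨y, hy, rfl⟩
      exact ⟨⟨n, hn⟩ * y * ⟨n, hn⟩⁻¹, hPn.conj_mem y hy ⟨n, hn⟩, rfl⟩
    · rintro ⟨y, hy, hyeq⟩
      refine ⟨⟨n, hn⟩⁻¹ * y * ⟨n, hn⟩, ?_, ?_⟩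
      · have := hPn.conj_mem y hy ⟨n, hn⟩⁻¹
        rwa [inv_inv] at this
      · show n⁻¹ * (N.subtype y) * n = h
        rw [hyeq]
        group
  rcases eq_or_lt_of_le hNQ with heq | hlt
  · exact heq ▸ le_refl _
  · have htop := hN.2 _ hlt
    exfalso
    have hQn : ((P : Subgroup N).map N.subtype).Normal := Subgroup.normalizer_eq_top_iff.mp htop
    rcases hQn.eq_bot_or_eq_top with hb | ht
    · have h1 : (P : Subgroup N) = ⊥ :=
        (Subgroup.map_eq_bot_iff_of_injective _ (Subgroup.subtype_injective N)).mp hb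
      rw [hP] at h1
      exact hTne ((Subgroup.map_eq_bot_iff_of_injective _ (Subgroup.subtype_injective K)).mp h1)
    · apply hN.1
      rw [eq_top_iff, ← ht]
      exact Subgroup.map_subtype_le _

/-- FH from the Hall property of `N_σ` (S1350). -/
theorem main_of {G : Type u} [Group G] [Finite G] (hG : IsMinSimpleOddOrder G)
    (N : Subgroup G) (hN : IsCoatom N)
    (hHall : IsPiHallOf (sigma N) (sigmaCore N) N)
    (hnil : Group.IsNilpotent (sigmaCore N)) : sigmaCore N = fittingHallOf N := by
  have hsimple : IsSimpleGroup G := hG.2.1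
  have hinj := Subgroup.subtype_injective N
  have key : piCore (sigma N) N = fittingHall N := by
    apply le_antisymm
    · apply le_sSup
      refine ⟨inferInstance, ?_, ?_⟩
      · have e := Subgroup.equivMapOfInjective (piCore (sigma N) N) N.subtype hinj
        have hnil' : Group.IsNilpotent ((piCore (sigma N) N).map N.subtype) := hnil
        exact Group.nilpotent_of_mulEquiv e.symm
      · by_contra hc
        obtain ⟨p, hp, h1, h2⟩ := Nat.Prime.not_coprime_iff_dvd.mp hc
        have hcard : Nat.card (piCore (sigma N) N) = Nat.card (sigmaCore N) :=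
          (Subgroup.card_map_of_injective hinj).symm
        have hidx : (piCore (sigma N) N).index = (sigmaCore N).relIndex N := by
          unfold Subgroup.relIndex Subgroup.subgroupOf sigmaCore
          rw [Subgroup.comap_map_eq_self_of_injective hinj]
        exact hHall.2.2 p hp (hHall.2.1 p hp (hcard ▸ h1)) (hidx ▸ h2)
    · apply sSup_le
      rintro K ⟨hKn, hKnil, hKcop⟩
      apply le_sSup
      exact ⟨hKn, fun p hp hpK => mem_sigma_of_normal_hall hsimple N hN K hKn hKnil hKcop p hp hpK⟩
  unfold sigmaCore fittingHallOf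
  rw [key]

end Cfsg.Agent.Lib.Helper57.BG14FHCore
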