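import Cfsg.Agent.Lib.Helper41.OMStmt
import Cfsg.Agent.Lib.Helper44.ODet
import Cfsg.Agent.Lib.Helper44.NegPairs

/-!
# S5978 piece MSQOM: squares of isometries of `quadFormMinus` lie in `Ω` (odd characteristic).
Adaptation of `Helper8.OFSQOM`.
-/

set_option autoImplicit false

namespace Cfsg.Agent.Lib.Helper57.OMMSQOM

open Cfsg.Agent.Lib.Helper41 Cfsg.Agent.Lib.Helper44
open Cfsg.Agent.Lib.Helper44.QSpace Cfsg.Agent.Lib.Helper44.OGroup

universe u

theorem finrank_ge {F : Type u} [Field F] (d : ℕ) :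
    2 ≤ Module.finrank F (OMStmt.Im d → F) := by
  rw [Module.finrank_fintype_fun_eq_card]
  simp only [Fintype.card_sum, Fintype.card_fin]
  omega

theorem main : OMStmt.MSqOm.{u} := by
  intro F _ _ h2 d hd a b hab g hg
  have hS := NegPairs.sep_minusQ (F := F) h2 (d - 1) a b hab
  have hCD : Omega2.CDP (NegPairs.minusQ (d - 1) F a b) := Omega2.cdp_of_two_ne_zero h2 hS
  let g' : ↥(Cfsg.isometryGroup F ⇑(NegPairs.minusQ (d - 1) F a b)) := ⟨g, hg⟩
  obtain ⟨vs, hvs, hgv⟩ := OMat2.exists_prod_of_cdp hCD g'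
  have hmem : g' * g' ∈ Cfsg.Omega F ⇑(NegPairs.minusQ (d - 1) F a b) := by
    rw [OMat.mem_omega_iff, map_mul, hgv, ← List.prod_append, ← List.map_append]
    rw [Spinor.mem_commutator_iff h2 hS (finrank_ge d) (vs ++ vs) (by
      intro v hv
      rcases List.mem_append.mp hv with h | h <;> exact hvs v h)]
    refine ⟨⟨vs.length, by rw [List.length_append]⟩, ?_⟩
    rw [List.map_append, List.prod_append]
    exact ⟨_, rfl⟩
  exact ⟨g' * g', hmem, rfl⟩

end Cfsg.Agent.Lib.Helper57.OMMSQOM
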