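import Mathlib
import Cfsg.Agent.Lib.Helper73.BG14Stmt

/-! S1375 piece TAU2 (helper57): `τ₂` is invariant under conjugation. -/

set_option autoImplicit false

namespace Cfsg.Agent.Lib.Helper57.BG14TAU2

open Cfsg

universe u

theorem pRankLE_of_inj {X Y : Type*} [Group X] [Group Y] (f : X →* Y)
    (hf : Function.Injective f) (p k : ℕ) (h : PRankLE p k Y) : PRankLE p k X := by
  intro A hA hexp
  haveI := hA
  have h1 := h (A.map f) inferInstance (by
    rintro _ ⟨a, ha, rfl⟩
    rw [← map_pow, hexp a ha, map_one])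
  rwa [Subgroup.card_map_of_injective hf] at h1

theorem mem_map_conj {G : Type*} [Group G] (Q : Subgroup G) (g z : G) :
    z ∈ Q.map (MulAut.conj g).toMonoidHom ↔ g⁻¹ * z * g ∈ Q := by
  constructor
  · rintro ⟨q, hq, rfl⟩
    have : g⁻¹ * ((MulAut.conj g).toMonoidHom q) * g = q := by
      show g⁻¹ * (g * q * g⁻¹) * g = q
      group
    rw [this]; exact hq
  · intro h
    refine ⟨g⁻¹ * z * g, h, ?_⟩
    show g * (g⁻¹ * z * g) * g⁻¹ = z
    group

theorem sigma_conj {G : Type u} [Group G] [Finite G] (M : Subgroup G) (g : G) (p : ℕ)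
    (hp : p ∈ sigma M) : p ∈ sigma (M.map (MulAut.conj g).toMonoidHom) := by
  obtain ⟨hpp, hdvd, P, hP⟩ := hp
  haveI : Fact p.Prime := ⟨hpp⟩
  let e : M ≃* M.map (MulAut.conj g).toMonoidHom := (MulAut.conj g).subgroupMap M
  let f : M →* M.map (MulAut.conj g).toMonoidHom := e.toMonoidHom
  have hf : Function.Surjective f := e.surjective
  refine ⟨hpp, ?_, P.mapSurjective hf, ?_⟩
  · rw [← Nat.card_congr e.toEquiv]; exact hdvd
  · intro x hx
    have hmap : ((P : Subgroup M).map f).map (M.map (MulAut.conj g).toMonoidHom).subtype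
        = ((P : Subgroup M).map M.subtype).map (MulAut.conj g).toMonoidHom := by
      rw [Subgroup.map_map, Subgroup.map_map]
      rfl
    have hx' : x ∈ Subgroup.normalizer
        ((((P : Subgroup M).map M.subtype).map (MulAut.conj g).toMonoidHom : Subgroup G) :
          Set G) := by
      rw [← hmap]; exact hx
    clear hx
    rename' hx' => hx
    rw [mem_map_conj]
    apply hP
    rw [Subgroup.mem_normalizer_iff] at hx ⊢
    intro h
    have := hx (g * h * g⁻¹)
    simp only [SetLike.mem_coe, mem_map_conj] at this ⊢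
    have e1 : g⁻¹ * (g * h * g⁻¹) * g = h := by group
    have e2 : g⁻¹ * (x * (g * h * g⁻¹) * x⁻¹) * g = (g⁻¹ * x * g) * h * (g⁻¹ * x * g)⁻¹ := by
      group
    rw [e1, e2] at this
    exact this

theorem main : Cfsg.Agent.Lib.Helper73.BG14Stmt.Tau2Conj.{u} := by
  intro G _ _ M g q hq
  obtain ⟨hqp, hns, h2, h1⟩ := hq
  let e : M ≃* M.map (MulAut.conj g).toMonoidHom := (MulAut.conj g).subgroupMap M
  refine ⟨hqp, ?_, ?_, ?_⟩
  · intro hs
    apply hns
    have := sigma_conj (M.map (MulAut.conj g).toMonoidHom) g⁻¹ q hs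
    have hback : (M.map (MulAut.conj g).toMonoidHom).map (MulAut.conj g⁻¹).toMonoidHom = M := by
      ext z
      rw [mem_map_conj, mem_map_conj]
      have : g⁻¹ * (g⁻¹⁻¹ * z * g⁻¹) * g = z := by group
      rw [this]
    rwa [hback] at this
  · exact pRankLE_of_inj e.symm.toMonoidHom e.symm.injective q 2 h2
  · intro h
    exact h1 (pRankLE_of_inj e.toMonoidHom e.injective q 1 h)

end Cfsg.Agent.Lib.Helper57.BG14TAU2
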