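import Mathlib
import Cfsg.Prelude.Def_Solvable

/-!
# S3999 (10u): a group with the order type of a Frobenius group is Frobenius; solvable iff the former is

helper57.  Statements of the pieces.  Every `def` with value in `Prop` is the exact statement of one
piece; its docstring is its proof.  A piece `Y` is a theorem `main : Cfsg.Agent.Lib.Helper57.FTStmt.Y.{u}`
(hypotheses only where the CALL says so).

PLAN.  `F` Frobenius with complement `C₀`, kernel `K₀` (normal, nilpotent, complement of `C₀`, landed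
S0034/S0035/S0042), `n = |K₀|`, `m = |C₀|` coprime.  `G` with the same order type, `e : F ≃ G` order
preserving.  For `p ∣ n` the Sylow `p`-subgroup of `F` is normal (NILSYL), so `F` has exactly `|F|_p`
elements of `p`-power order (SYLCNT), so does `G`, so the Sylow `p`-subgroups of `G` are normal (CNTNORM).
HALLN: `G` has a normal subgroup `N` of order `n`; Schur-Zassenhaus: a complement `C`.  Every element
order of `F` (hence of `G`) divides `n` or `m` (DIV), so `C` acts fixed point freely on `N` (FPF) and `C`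
is a Frobenius complement (landed S0039).  Solvability: `X` solvable iff its complement is (SOLVEXT);
`C₀`, `C` have the same number of elements of each order `d > 1` (CNT twice).  A non-solvable Frobenius
complement (SHRINK + landed S3359: index `≤ 2` over `SL(2,5) × M`) has order divisible by `15`, not by
`9` or `25` (CARD15) and no element of order `15` (SL15, NO15); a solvable group of such an order has an
element of order `15` (Hall `{3,5}`-subgroup, CYC15, EL15).
-/

set_option autoImplicit false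

namespace Cfsg.Agent.Lib.Helper57.FTStmt

universe u

/-- [DIV] (S)  `x ∈ K`: `Subgroup.orderOf_dvd_natCard`.  `x ∉ K`: by the definition of
`Cfsg.frobeniusKernel`, `x ∈ MulAut.conj g • C` for some `g`, i.e. `x = g * c * g⁻¹` with `c ∈ C`
(`Subgroup.mem_pointwise_smul_iff_inv_smul_mem`), and `orderOf x = orderOf c` divides `Nat.card C`. -/
def OrdDiv : Prop :=
  ∀ (X : Type u) [Group X] [Finite X] (C K : Subgroup X),
    (K : Set X) = Cfsg.frobeniusKernel C →
    ∀ x : X, orderOf x ∣ Nat.card K ∨ orderOf x ∣ Nat.card C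

/-- [CNT] (M)  The map `K × {c : C // orderOf c = d} → {x : X // orderOf x = d}`,
`(k, c) ↦ k * c * k⁻¹`, is a bijection.  Injective: `k c k⁻¹ = k' c' k'⁻¹`, `g = k'⁻¹ k ∈ K`,
`c' = g c g⁻¹ ∈ C ⊓ MulAut.conj g • C`, `c' ≠ 1` (order `d > 1`), so `g ∈ C` (third clause of
`IsFrobeniusComplement`), `g ∈ K ⊓ C = ⊥`.  Surjective: `orderOf x = d`; `x ∉ K` (else `d` divides
`Nat.card K` and `Nat.card C`, coprime); so `x = g c g⁻¹`, `c ∈ C` (definition of the kernel);
`g = k * c₀` (`IsComplement'`), `x = k (c₀ c c₀⁻¹) k⁻¹`. -/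
def Cnt : Prop :=
  ∀ (X : Type u) [Group X] [Finite X] (C K : Subgroup X), Cfsg.IsFrobeniusComplement C →
    K.Normal → Subgroup.IsComplement' K C → (K : Set X) = Cfsg.frobeniusKernel C →
    (Nat.card K).Coprime (Nat.card C) →
    ∀ d : ℕ, 1 < d → d ∣ Nat.card C →
      Nat.card {x : X // orderOf x = d} = Nat.card K * Nat.card {c : C // orderOf c = d}

/-- [NILSYL] (M)  `Q` a Sylow `p`-subgroup of `↥K`: normal in `↥K` (nilpotent:
`isNilpotent_of_finite_tfae`), hence the only one.  `P₀ = Q.map K.subtype` has order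
`p ^ (Nat.card K).factorization p = p ^ (Nat.card X).factorization p` (`Nat.card X = Nat.card K * Nat.card C`,
`p ∤ Nat.card C`).  For `g : X` the conjugate of `P₀` lies in `K` (normal) and is the image of a Sylow
`p`-subgroup of `↥K`, hence is `P₀`.  So `P₀` is a normal Sylow `p`-subgroup of `X` (`Sylow.ofCard`). -/
def NilSyl : Prop :=
  ∀ (X : Type u) [Group X] [Finite X] (K C : Subgroup X), K.Normal → Group.IsNilpotent K →
    Subgroup.IsComplement' K C → (Nat.card K).Coprime (Nat.card C) →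
    ∀ (p : ℕ) [Fact p.Prime], p ∣ Nat.card K → ∃ P : Sylow p X, (P : Subgroup X).Normal

/-- [SYLCNT] (S-M)  The set is `(P : Set Y)`: `y ∈ P` has `p`-power order (`IsPGroup.iff_orderOf`);
`y` of `p`-power order: `zpowers y` is a `p`-group, lies in a Sylow `p`-subgroup
(`IsPGroup.exists_le_sylow`), which is `P` (normal Sylow is the only one).  `Sylow.card_eq_multiplicity`. -/
def SylCnt : Prop :=
  ∀ (Y : Type u) [Group Y] [Finite Y] (p : ℕ) [Fact p.Prime] (P : Sylow p Y),
    (P : Subgroup Y).Normal →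
    Nat.card {y : Y // ∃ j : ℕ, orderOf y = p ^ j} = p ^ (Nat.card Y).factorization p

/-- [CNTNORM] (S-M)  `(P : Set Y) ⊆ {y | ∃ j, orderOf y = p ^ j}`, both finite of the same size
(`Sylow.card_eq_multiplicity`), so they are equal; the right side is closed under conjugation. -/
def CntNorm : Prop :=
  ∀ (Y : Type u) [Group Y] [Finite Y] (p : ℕ) [Fact p.Prime],
    Nat.card {y : Y // ∃ j : ℕ, orderOf y = p ^ j} = p ^ (Nat.card Y).factorization p →
    ∀ P : Sylow p Y, (P : Subgroup Y).Normal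

/-- [HALLN] (M-L)  Induction on `T ⊆ n.primeFactors` (`Finset.induction_on`): there is a normal `N_T`
with `Nat.card N_T = ∏ p ∈ T, p ^ (Nat.card Y).factorization p`.  Step: `N' = N_T ⊔ P` (`P` the normal
Sylow `p`-subgroup) is normal; `Nat.card N_T` and `Nat.card P` are coprime and both divide `Nat.card N'`;
and `(N' : Set Y) = N_T * P` (`Subgroup.normal_mul`) has at most `Nat.card N_T * Nat.card P` elements.
For `T = n.primeFactors` the product is `n` (`(n * m).factorization p = n.factorization p` for `p ∣ n`,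
`Nat.factorization_prod_pow_eq_self`). -/
def HallN : Prop :=
  ∀ (Y : Type u) [Group Y] [Finite Y] (n m : ℕ), Nat.card Y = n * m → n.Coprime m →
    (∀ (p : ℕ) [Fact p.Prime], p ∣ n → ∀ P : Sylow p Y, (P : Subgroup Y).Normal) →
    ∃ N : Subgroup Y, N.Normal ∧ Nat.card N = n

/-- [FPF] (S)  `k ∈ N` commuting with `c`, `k ≠ 1`: `orderOf (c * k) = orderOf c * orderOf k`
(`Commute.orderOf_mul_eq_mul_orderOf_of_coprime`).  If it divides `Nat.card N`, so does `orderOf c`, which
also divides `Nat.card C`: `c = 1`.  If it divides `Nat.card C`, so does `orderOf k`: `k = 1`. -/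
def Fpf : Prop :=
  ∀ (Y : Type u) [Group Y] [Finite Y] (N C : Subgroup Y),
    (Nat.card N).Coprime (Nat.card C) →
    (∀ y : Y, orderOf y ∣ Nat.card N ∨ orderOf y ∣ Nat.card C) →
    ∀ c ∈ C, c ≠ 1 → N ⊓ Subgroup.centralizer {c} = ⊥

/-- [SOLVEXT] (S)  `→`: subgroup of a solvable group.  `←`: `solvable_of_ker_le_range K.subtype
(QuotientGroup.mk' K)`; `K` nilpotent hence solvable; `C → X ⧸ K` is onto (`IsComplement'`), so `X ⧸ K` is
solvable (`solvable_of_surjective`). -/
def SolvExt : Prop :=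
  ∀ (X : Type u) [Group X] [Finite X] (K C : Subgroup X), K.Normal → Subgroup.IsComplement' K C →
    Group.IsNilpotent K → (Group.IsSolvable X ↔ Group.IsSolvable C)

/-- [SL15] (M)  `A = (g : Matrix _ _ _)`, `t = A 0 0 + A 1 1`, `det A = 1`: `A * A = t • A - 1`
(entrywise).  `t = 2`: `(A - 1) ^ 2 = 0`, `A ^ 5 = 1`.  `t = 3`: `(A + 1) ^ 2 = 0`, `A ^ 5 = -1`,
`A ^ 10 = 1`.  `t = 0`: `A ^ 4 = 1`.  `t = 1`: `A ^ 3 = -1`, `A ^ 6 = 1`.  `t = 4`: `A ^ 3 = 1`.
In each case `15 = orderOf g` would divide `5`, `10`, `4`, `6` or `3`.  (Or brute force over the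
entries `a b c d : ZMod 5` with `a * d - b * c = 1`.) -/
def SL15 : Prop :=
  ∀ g : Matrix.SpecialLinearGroup (Fin 2) (ZMod 5), orderOf g ≠ 15

/-- [NO15] (M)  `orderOf y = 15`.  `y ∈ G₀`: `y * y ∈ G₀` (`Subgroup.mul_self_mem_of_index_two`) and
`y = (y * y) ^ 8`.  `y = s * t`, `s ∈ S`, `t ∈ M` (closure induction on `S ⊔ M`, the factors commute).
`1 = y ^ 15 = s ^ 15 * t ^ 15`, so `t ^ 15 ∈ S ⊓ M = ⊥`, `orderOf t` divides `15` and `Nat.card M`
(coprime to `30`): `t = 1`, `y = s`, and the image of `s` in `SL(2,5)` has order `15`. -/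
def No15 : Prop :=
  ∀ (Y : Type u) [Group Y] [Finite Y] (G₀ S M : Subgroup Y), G₀.Normal →
    (G₀.index = 1 ∨ G₀.index = 2) → S ⊔ M = G₀ → S ⊓ M = ⊥ →
    (∀ s ∈ S, ∀ x ∈ M, s * x = x * s) →
    Nonempty (S ≃* Matrix.SpecialLinearGroup (Fin 2) (ZMod 5)) →
    (Nat.card M).Coprime 30 →
    (∀ g : Matrix.SpecialLinearGroup (Fin 2) (ZMod 5), orderOf g ≠ 15) →
    ∀ y : Y, orderOf y ≠ 15

/-- [CARD15] (M)  `Nat.card S = 120` (landed `Cfsg.Agent.Lib.Helper38.SLCard.card_SL2 (F := ZMod 5)`, see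
`Cfsg.Agent.Lib.Helper56.SL25Pres.card_S5`), so `15 ∣ Nat.card Y`.  `Nat.card Y = G₀.index * Nat.card G₀`
and `Nat.card G₀` divides `Nat.card S * Nat.card M` (`G₀ = S ⊔ M` is the range of
`MonoidHom.noncommCoprod S.subtype M.subtype _`, `MonoidHom.noncommCoprod_range`, `Subgroup.card_range_dvd`),
so `Nat.card Y ∣ 240 * Nat.card M`; `Nat.card M` is coprime to `3` and `5`, and `9 ∤ 240`, `25 ∤ 240`. -/
def Card15 : Prop :=
  ∀ (Y : Type u) [Group Y] [Finite Y] (G₀ S M : Subgroup Y),
    (G₀.index = 1 ∨ G₀.index = 2) → S ⊔ M = G₀ →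
    (∀ s ∈ S, ∀ x ∈ M, s * x = x * s) →
    Nonempty (S ≃* Matrix.SpecialLinearGroup (Fin 2) (ZMod 5)) →
    (Nat.card M).Coprime 30 →
    15 ∣ Nat.card Y ∧ ¬ 9 ∣ Nat.card Y ∧ ¬ 25 ∣ Nat.card Y

/-- [CYC15] (M)  The number of Sylow `5`-subgroups is `≡ 1 mod 5` and divides `3`: one, normal; the
number of Sylow `3`-subgroups is `≡ 1 mod 3` and divides `5`: one, normal.  Normal subgroups with trivial
intersection commute elementwise (`Subgroup.commute_of_normal_of_disjoint`); `a` of order `3`, `b` of order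
`5` (Cauchy) commute and `orderOf (a * b) = 15`. -/
def Cyc15 : Prop :=
  ∀ (H : Type u) [Group H], Nat.card H = 15 → ∃ h : H, orderOf h = 15

/-- [EL15] (S-M)  (from `Cyc15`)  `Nat.card Y = 15 * n` with `Nat.Coprime 15 n` (as `9`, `25` do not
divide); landed Hall theorem `Cfsg.Agent.Lib.Helper91.Hall.hall_exists 15 n` (imports Mathlib only) gives
`H : Subgroup Y` of order `15`; `Cyc15` for `↥H`; `Subgroup.orderOf_coe`. -/
def El15 : Prop :=
  ∀ (Y : Type u) [Group Y] [Finite Y], Group.IsSolvable Y → 15 ∣ Nat.card Y →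
    ¬ 9 ∣ Nat.card Y → ¬ 25 ∣ Nat.card Y → ∃ y : Y, orderOf y = 15

/-- [SHRINK] (S-M)  `e : Fin (Nat.card Y) ≃ Y`, `L = Fin (Nat.card Y)` with `e.group`, `f = e.mulEquiv :
L ≃* Y`, `H = C.comap f.toMonoidHom`; `IsFrobeniusComplement` transfers (`H ≠ ⊥`, `H ≠ ⊤`, and
`x ∈ H ⊓ MulAut.conj g • H` gives `f x ∈ C ⊓ MulAut.conj (f g) • C`); `↥C ≃* ↥H` by restricting `f.symm`.
(See `Cfsg.Agent.Lib.Helper61.PrimeGraph.exists_type0`.) -/
def Shrink : Prop :=
  ∀ (Y : Type u) [Group Y] [Finite Y] (C : Subgroup Y), Cfsg.IsFrobeniusComplement C →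
    ∃ (L : Type) (_ : Group L) (_ : Finite L) (H : Subgroup L),
      Cfsg.IsFrobeniusComplement H ∧ Nonempty (↥C ≃* ↥H)

/-- [KER] (helper57; from landed S0034, S0035, S0042) -/
def Ker : Prop :=
  ∀ (X : Type u) [Group X] [Finite X] (C : Subgroup X), Cfsg.IsFrobeniusComplement C →
    ∃ K : Subgroup X, K.Normal ∧ Subgroup.IsComplement' K C ∧
      (K : Set X) = Cfsg.frobeniusKernel C ∧ Group.IsNilpotent K ∧
      (Nat.card K).Coprime (Nat.card C) ∧ K ≠ ⊥

end Cfsg.Agent.Lib.Helper57.FTStmt
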