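import Mathlib
import Cfsg.Agent.Lib.Helper96.HallAltStmt

set_option autoImplicit false

namespace Cfsg.Agent.Lib.Helper57.HAPD1

open Equiv Cfsg.Agent.Lib.Helper96.HallSymStmt Cfsg.Agent.Lib.Helper96.HallAltStmt

theorem main : Cfsg.Agent.Lib.Helper96.HallAltStmt.PD1 := by
  intro G _ _ hsolv hnt
  classical
  have hex : ∃ n : ℕ, derivedSeries G n = ⊥ := hsolv.solvable
  have hn0 : Nat.find hex ≠ 0 := by
    intro h0
    have h1 := Nat.find_spec hex
    rw [h0, derivedSeries_zero] at h1
    exact top_ne_bot h1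
  obtain ⟨k, hk⟩ := Nat.exists_eq_succ_of_ne_zero hn0
  have hkne : derivedSeries G k ≠ ⊥ := Nat.find_min hex (by omega)
  have hk1 : derivedSeries G (k + 1) = ⊥ := by
    have h1 := Nat.find_spec hex
    rw [hk] at h1
    exact h1
  refine ⟨derivedSeries G k, derivedSeries_normal G k, hkne, ?_⟩
  intro a ha b hb
  have h2 := Subgroup.commutator_mem_commutator ha hb
  rw [← derivedSeries_succ, hk1, Subgroup.mem_bot, commutatorElement_eq_one_iff_mul_comm] at h2
  exact h2

end Cfsg.Agent.Lib.Helper57.HAPD1
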