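import Mathlib
import Cfsg.Agent.Lib.Helper41.OMStmt
import Cfsg.Agent.Lib.Helper47.OFEIG1

/-!
# S5978 piece EIG1G: eigenspace decomposition of an involution `x ∈ SO` for any symmetric
invertible form on an index type of even size (adaptation of `Helper47.OFEIG1`).
-/

set_option autoImplicit false

namespace Cfsg.Agent.Lib.Helper57.OMEIG1G

open Matrix
open Cfsg.Agent.Lib.Helper41.OMStmt

universe u

theorem main : Eig1G.{u} := by
  intro F _ h2 ι _ _ hev S₀ x hS₀ hS₀det hxS hxx hdet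
  obtain ⟨a, b, bs, hbs1, hbs2⟩ :=
    Cfsg.Agent.Lib.Helper47.OFEIG1.exists_eigenbasis h2 x hxx
  obtain ⟨c, hc⟩ := hev
  have hab : a + b = c + c := by
    have h1 := Module.finrank_eq_card_basis bs
    rw [Module.finrank_fintype_fun_eq_card, Fintype.card_sum, Fintype.card_fin,
      Fintype.card_fin] at h1
    rw [← hc]
    exact h1.symm
  have hS0inv : S₀ * S₀⁻¹ = 1 := Matrix.mul_nonsing_inv S₀ (isUnit_iff_ne_zero.mpr hS₀det)
  have hD : LinearMap.toMatrix bs bs (Matrix.toLin' x) =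
      (Matrix.fromBlocks 1 0 0 (-1) : Matrix (Fin a ⊕ Fin b) (Fin a ⊕ Fin b) F) := by
    ext i j
    rw [LinearMap.toMatrix_apply, Matrix.toLin'_apply]
    rcases j with j | j
    · rw [hbs1, Module.Basis.repr_self]
      rcases i with i | i <;> simp [Finsupp.single_apply, Matrix.one_apply, eq_comm]
    · rw [hbs2, map_neg, Module.Basis.repr_self]
      rcases i with i | i <;> simp [Finsupp.single_apply, Matrix.one_apply, eq_comm]
  have hdetD : x.det = (-1 : F) ^ b := by
    rw [← LinearMap.det_toLin' x, ← LinearMap.det_toMatrix bs, hD, Matrix.det_fromBlocks_zero₂₁,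
      Matrix.det_one, one_mul, Matrix.det_neg, Matrix.det_one, mul_one, Fintype.card_fin]
  have hbeven : Even b := by
    rw [hdet] at hdetD
    have hne : (-1 : F) ≠ 1 := by
      intro h
      apply h2
      have e2 : (2 : F) = 1 + 1 := by norm_num
      rw [e2]
      nth_rewrite 1 [← h]
      exact neg_add_cancel 1
    exact (neg_one_pow_eq_one_iff_even hne).1 hdetD.symm
  obtain ⟨k₂, hk₂⟩ := hbeven
  have ha2 : a = 2 * (c - k₂) := by omega
  have hb2 : b = 2 * k₂ := by omega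
  have hk2c : k₂ ≤ c := by omega
  subst ha2 hb2
  obtain ⟨P, hPdef⟩ : ∃ P : Matrix ι (Fin (2 * (c - k₂)) ⊕ Fin (2 * k₂)) F,
      P = (Pi.basisFun F ι).toMatrix bs := ⟨_, rfl⟩
  obtain ⟨P', hP'def⟩ : ∃ P' : Matrix (Fin (2 * (c - k₂)) ⊕ Fin (2 * k₂)) ι F,
      P' = bs.toMatrix (Pi.basisFun F ι) := ⟨_, rfl⟩
  have hPP' : P * P' = 1 := by
    rw [hPdef, hP'def]
    exact Module.Basis.toMatrix_mul_toMatrix_flip _ _
  have hP'P : P' * P = 1 := by
    rw [hPdef, hP'def]
    exact Module.Basis.toMatrix_mul_toMatrix_flip _ _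
  have hPe : ∀ i j, P i j = bs j i := by
    intro i j
    rw [hPdef, Module.Basis.toMatrix_apply, Pi.basisFun_repr]
  obtain ⟨D, hDdef⟩ : ∃ D : Matrix (Fin (2 * (c - k₂)) ⊕ Fin (2 * k₂))
      (Fin (2 * (c - k₂)) ⊕ Fin (2 * k₂)) F, D = Matrix.fromBlocks 1 0 0 (-1) := ⟨_, rfl⟩
  have hDdiag : D = Matrix.diagonal (Sum.elim (fun _ => (1 : F)) (fun _ => (-1 : F))) := by
    rw [hDdef]
    ext i j
    rcases i with i | i <;> rcases j with j | j <;>
      simp [Matrix.diagonal_apply, Matrix.one_apply]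
    split_ifs <;> simp
  have hxP : x * P = P * D := by
    ext i j
    have h1 : (x * P) i j = (x *ᵥ bs j) i := by
      simp only [Matrix.mul_apply, Matrix.mulVec, dotProduct, hPe]
    rw [h1, hDdiag, Matrix.mul_diagonal, hPe]
    rcases j with j | j
    · rw [hbs1]
      simp
    · rw [hbs2]
      simp
  obtain ⟨S, hSdef⟩ : ∃ S, S = Pᵀ * S₀ * P := ⟨_, rfl⟩
  have hSD : Dᵀ * S * D = S := by
    calc Dᵀ * S * D = (P * D)ᵀ * S₀ * (P * D) := by
          rw [hSdef, Matrix.transpose_mul]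
          simp only [Matrix.mul_assoc]
      _ = (x * P)ᵀ * S₀ * (x * P) := by rw [hxP]
      _ = Pᵀ * (xᵀ * S₀ * x) * P := by
          rw [Matrix.transpose_mul]
          simp only [Matrix.mul_assoc]
      _ = S := by rw [hxS, hSdef]
  have hSentry : ∀ i j, Sum.elim (fun _ => (1 : F)) (fun _ => (-1 : F)) i * S i j *
      Sum.elim (fun _ => (1 : F)) (fun _ => (-1 : F)) j = S i j := by
    intro i j
    have h := congrFun (congrFun hSD i) j
    rw [hDdiag, Matrix.diagonal_transpose, Matrix.mul_diagonal, Matrix.diagonal_mul] at h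
    exact h
  have hzero : ∀ s : F, -s = s → s = 0 := by
    intro s hs
    have h' : (2 : F) * s = 0 := by
      rw [two_mul]
      nth_rewrite 1 [← hs]
      exact neg_add_cancel s
    exact (mul_eq_zero.1 h').resolve_left h2
  have hS12 : S.toBlocks₁₂ = 0 := by
    ext i j
    have h := hSentry (Sum.inl i) (Sum.inr j)
    simp only [Sum.elim_inl, Sum.elim_inr, one_mul, mul_neg, mul_one] at h
    exact hzero _ h
  have hS21 : S.toBlocks₂₁ = 0 := by
    ext i j
    have h := hSentry (Sum.inr i) (Sum.inl j)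
    simp only [Sum.elim_inl, Sum.elim_inr, neg_mul, one_mul, mul_one] at h
    exact hzero _ h
  have hSblocks : S = Matrix.fromBlocks S.toBlocks₁₁ 0 0 S.toBlocks₂₂ := by
    have h := (Matrix.fromBlocks_toBlocks S).symm
    rw [hS12, hS21] at h
    exact h
  have hSsymm : Sᵀ = S := by
    rw [hSdef, Matrix.transpose_mul, Matrix.transpose_mul, Matrix.transpose_transpose,
      hS₀, Matrix.mul_assoc]
  have hSdet : S.det ≠ 0 := by
    have h1 : S * (P' * S₀⁻¹ * P'ᵀ) = 1 := by
      calc S * (P' * S₀⁻¹ * P'ᵀ) = Pᵀ * (S₀ * ((P * P') * (S₀⁻¹ * P'ᵀ))) := by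
            rw [hSdef]
            simp only [Matrix.mul_assoc]
        _ = 1 := by
            rw [hPP', Matrix.one_mul, ← Matrix.mul_assoc S₀, hS0inv, Matrix.one_mul,
              ← Matrix.transpose_mul, hP'P, Matrix.transpose_one]
    exact Matrix.det_ne_zero_of_right_inverse h1
  have hdet2 : S.det = S.toBlocks₁₁.det * S.toBlocks₂₂.det := by
    conv_lhs => rw [hSblocks]
    exact Matrix.det_fromBlocks_zero₂₁ _ _ _
  have hsymm2 : Matrix.fromBlocks S.toBlocks₁₁ᵀ 0 0 S.toBlocks₂₂ᵀ =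
      Matrix.fromBlocks S.toBlocks₁₁ 0 0 S.toBlocks₂₂ := by
    have h := hSsymm
    rw [hSblocks, Matrix.fromBlocks_transpose] at h
    simpa using h
  rw [Matrix.fromBlocks_inj] at hsymm2
  refine ⟨c - k₂, k₂, P, P', S.toBlocks₁₁, S.toBlocks₂₂, by omega, hPP', hP'P, hsymm2.1, ?_,
    hsymm2.2.2.2, ?_, ?_, ?_⟩
  · intro h0
    apply hSdet
    rw [hdet2, h0, zero_mul]
  · intro h0
    apply hSdet
    rw [hdet2, h0, mul_zero]
  · rw [← hSdef]
    exact hSblocks
  · rw [hDdef] at hxP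
    exact hxP

end Cfsg.Agent.Lib.Helper57.OMEIG1G
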