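import Mathlib
import Cfsg.Agent.Lib.Helper41.OMStmt
import Cfsg.Agent.Lib.Helper50.OFDETS0

/-!
# S5978 piece MBR: the Gram matrix `Gm d a b` of the polar form of `quadFormMinus (d - 1) F a b`
(adaptation of `Helper50.OFOBR`, `OFSABR`, `OFDETS0`).
-/

set_option autoImplicit false

namespace Cfsg.Agent.Lib.Helper57.OMMBR

open Matrix
open Cfsg.Agent.Lib.Helper41.OMStmt

universe u

variable {F : Type u} [Field F] {d : ℕ} {a b : F}

/-- The polar form in coordinates. -/
theorem dot_Gm (u v : Im d → F) :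
    u ⬝ᵥ (Gm d a b *ᵥ v) =
      ∑ i : Fin (d - 1), (u (.inl (.inl i)) * v (.inl (.inr i)) +
        u (.inl (.inr i)) * v (.inl (.inl i))) +
      (2 * u (.inr 0) * v (.inr 0) + a * u (.inr 0) * v (.inr 1) + a * u (.inr 1) * v (.inr 0) +
        2 * b * u (.inr 1) * v (.inr 1)) := by
  unfold Gm
  rw [Matrix.fromBlocks_mulVec, Matrix.fromBlocks_mulVec]
  simp only [dotProduct, Fintype.sum_sum_type, Sum.elim_inl, Sum.elim_inr, Matrix.zero_mulVec,
    Matrix.one_mulVec, zero_add, add_zero, Function.comp_apply, Finset.sum_add_distrib,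
    Fin.sum_univ_two, Matrix.mulVec, Matrix.of_apply, Matrix.cons_val', Matrix.cons_val_zero,
    Matrix.cons_val_one, Matrix.cons_val_fin_one]
  ring

theorem sum_add (u v : Im d → F) :
    ∑ i : Fin (d - 1), (u + v) (.inl (.inl i)) * (u + v) (.inl (.inr i)) =
      ∑ i : Fin (d - 1), u (.inl (.inl i)) * u (.inl (.inr i)) +
        ∑ i : Fin (d - 1), v (.inl (.inl i)) * v (.inl (.inr i)) +
        ∑ i : Fin (d - 1), (u (.inl (.inl i)) * v (.inl (.inr i)) +
          u (.inl (.inr i)) * v (.inl (.inl i))) := by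
  rw [← Finset.sum_add_distrib, ← Finset.sum_add_distrib]
  apply Finset.sum_congr rfl
  intro i _
  simp only [Pi.add_apply]
  ring

theorem quad_add (u v : Im d → F) :
    Cfsg.quadFormMinus (d - 1) F a b (u + v) =
      Cfsg.quadFormMinus (d - 1) F a b u + Cfsg.quadFormMinus (d - 1) F a b v +
        u ⬝ᵥ (Gm d a b *ᵥ v) := by
  rw [dot_Gm]
  unfold Cfsg.quadFormMinus
  rw [sum_add]
  simp only [Pi.add_apply]
  ring

theorem dot_self (u : Im d → F) :
    u ⬝ᵥ (Gm d a b *ᵥ u) = 2 * Cfsg.quadFormMinus (d - 1) F a b u := by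
  rw [dot_Gm]
  unfold Cfsg.quadFormMinus
  rw [mul_add, Finset.mul_sum]
  congr 1
  · apply Finset.sum_congr rfl
    intro i _
    ring
  · ring

theorem polar_eq (u v : Im d → F) :
    QuadraticMap.polar (Cfsg.quadFormMinus (d - 1) F a b) u v = u ⬝ᵥ (Gm d a b *ᵥ v) := by
  unfold QuadraticMap.polar
  rw [quad_add]
  ring

theorem dot_conj (g : Matrix (Im d) (Im d) F) (u v : Im d → F) :
    (g *ᵥ u) ⬝ᵥ (Gm d a b *ᵥ (g *ᵥ v)) = u ⬝ᵥ ((gᵀ * Gm d a b * g) *ᵥ v) := by
  rw [← Matrix.vecMul_transpose, ← Matrix.dotProduct_mulVec, Matrix.mulVec_mulVec,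
    Matrix.mulVec_mulVec, Matrix.mul_assoc]

theorem mem_iff (g : GL (Im d) F) :
    g ∈ Cfsg.isometryGroup F (Cfsg.quadFormMinus (d - 1) F a b) ↔
      ∀ u : Im d → F, Cfsg.quadFormMinus (d - 1) F a b (g.val *ᵥ u) =
        Cfsg.quadFormMinus (d - 1) F a b u := by
  constructor
  · intro h u
    exact h u u
  · intro h u v
    exact h u

theorem Gm_transpose : (Gm d a b)ᵀ = Gm d a b := by
  unfold Gm
  rw [Matrix.fromBlocks_transpose, Matrix.fromBlocks_transpose]
  have h : (!![2, a; a, 2 * b] : Matrix (Fin 2) (Fin 2) F)ᵀ = !![2, a; a, 2 * b] := by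
    ext i j
    fin_cases i <;> fin_cases j <;> rfl
  rw [h]
  simp

theorem Gm_det : (Gm d a b).det = (-1) ^ (d - 1) * (4 * b - a ^ 2) := by
  unfold Gm
  rw [Matrix.det_fromBlocks_zero₂₁, Matrix.det_fin_two_of]
  have hA : (Matrix.fromBlocks (0 : Matrix (Fin (d - 1)) (Fin (d - 1)) F) 1 1 0).det =
      (-1) ^ (d - 1) := Cfsg.Agent.Lib.Helper50.OFDETS0.main (d - 1)
  rw [hA]
  ring

theorem main : MBr.{u} := by
  intro F _ h2 d a b
  refine ⟨Gm_transpose, Gm_det, ?_, ?_⟩
  · intro g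
    rw [mem_iff]
    constructor
    · intro h
      have hB : ∀ u v : Im d → F,
          u ⬝ᵥ ((g.valᵀ * Gm d a b * g.val) *ᵥ v) = u ⬝ᵥ (Gm d a b *ᵥ v) := by
        intro u v
        rw [← dot_conj]
        have h1 := quad_add (a := a) (b := b) (g.val *ᵥ u) (g.val *ᵥ v)
        rw [← Matrix.mulVec_add, h, h u, h v, quad_add u v] at h1
        exact (add_left_cancel h1).symm
      ext i j
      have := hB (Pi.single i 1) (Pi.single j 1)
      simpa using this
    · intro h u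
      have h1 := dot_self (a := a) (b := b) (g.val *ᵥ u)
      rw [dot_conj, h, dot_self] at h1
      exact (mul_left_cancel₀ h2 h1).symm
  · intro K hK k hk
    have hB : ∀ u v : Im d → F,
        u ⬝ᵥ ((Gm d a b * k) *ᵥ v) = u ⬝ᵥ ((kᵀ * Gm d a b) *ᵥ v) := by
      intro u v
      have h1 := hK k hk u v
      rw [polar_eq, polar_eq] at h1
      rw [← Matrix.mulVec_mulVec, ← h1, ← Matrix.vecMul_transpose, ← Matrix.dotProduct_mulVec,
        Matrix.mulVec_mulVec]
    ext i j
    have := hB (Pi.single i 1) (Pi.single j 1)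
    simpa using this

end Cfsg.Agent.Lib.Helper57.OMMBR
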