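import Mathlib

/-! Tools for the principal ideal theorem: the translation module `Q → A` over the group ring
`ℤ[Q]`, the determinant trick, and the annihilator of the augmentation ideal. -/

set_option autoImplicit false
set_option linter.unusedSectionVars false

namespace Cfsg.Agent.Lib.Helper57.PITMod

section bmod

variable (Q : Type*) [CommGroup Q] (A : Type*) [AddCommGroup A]

/-- functions `Q → A`, as a module over the group ring `ℤ[Q]` through translations -/
def BMod : Type _ := Q → A

instance : AddCommGroup (BMod Q A) := inferInstanceAs (AddCommGroup (Q → A))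

variable {Q A}

/-- translation by `q` -/
def shift (q : Q) : BMod Q A →ₗ[ℤ] BMod Q A where
  toFun f := fun x => f (q⁻¹ * x)
  map_add' _ _ := rfl
  map_smul' _ _ := rfl

variable (Q A)

/-- translations as a monoid homomorphism -/
def shiftHom : Q →* Module.End ℤ (BMod Q A) where
  toFun := shift
  map_one' := by
    apply LinearMap.ext; intro f; funext x
    show f (1⁻¹ * x) = f x
    rw [inv_one, one_mul]
  map_mul' q q' := by
    apply LinearMap.ext; intro f; funext x
    show f ((q * q')⁻¹ * x) = f (q'⁻¹ * (q⁻¹ * x))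
    rw [mul_inv_rev, mul_assoc]

/-- the action of the group ring -/
noncomputable def rho : MonoidAlgebra ℤ Q →+* Module.End ℤ (BMod Q A) :=
  (MonoidAlgebra.lift ℤ (Module.End ℤ (BMod Q A)) Q (shiftHom Q A)).toRingHom

noncomputable instance : Module (MonoidAlgebra ℤ Q) (BMod Q A) :=
  Module.compHom (BMod Q A) (rho Q A)

variable {Q A}

theorem smul_def' (r : MonoidAlgebra ℤ Q) (f : BMod Q A) : r • f = rho Q A r f := rfl

theorem of_smul (q : Q) (f : BMod Q A) (x : Q) :
    (MonoidAlgebra.of ℤ Q q • f) x = f (q⁻¹ * x) := by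
  rw [smul_def']
  show (MonoidAlgebra.lift ℤ (Module.End ℤ (BMod Q A)) Q (shiftHom Q A))
    (MonoidAlgebra.of ℤ Q q) f x = _
  rw [MonoidAlgebra.lift_of]
  rfl

/-- evaluation at a point -/
def ev (x : Q) : BMod Q A →+ A where
  toFun f := f x
  map_zero' := rfl
  map_add' _ _ := rfl

theorem ev_apply (x : Q) (f : BMod Q A) : ev x f = f x := rfl

theorem bext {f g : BMod Q A} (h : ∀ x, f x = g x) : f = g := funext h

theorem add_apply' (f g : BMod Q A) (x : Q) : (f + g) x = f x + g x := rfl

variable (Q) in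
/-- the norm element of the group ring -/
noncomputable def nrm [Fintype Q] : MonoidAlgebra ℤ Q := ∑ q, MonoidAlgebra.of ℤ Q q

theorem nrm_smul [Fintype Q] (f : BMod Q A) (x : Q) : (nrm Q • f) x = ∑ y, f y := by
  show ev x (nrm Q • f) = _
  rw [nrm, Finset.sum_smul, map_sum]
  simp only [ev_apply, of_smul]
  exact Fintype.sum_equiv ((Equiv.inv Q).trans (Equiv.mulRight x)) _ _ (fun q => rfl)

variable (Q) in
/-- the augmentation -/
noncomputable def aug : MonoidAlgebra ℤ Q →+* ℤ :=
  (MonoidAlgebra.lift ℤ ℤ Q (1 : Q →* ℤ)).toRingHom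

theorem aug_of (q : Q) : aug Q (MonoidAlgebra.of ℤ Q q) = 1 := by
  show (MonoidAlgebra.lift ℤ ℤ Q (1 : Q →* ℤ)) (MonoidAlgebra.of ℤ Q q) = 1
  rw [MonoidAlgebra.lift_of]
  rfl

theorem aug_nrm [Fintype Q] : aug Q (nrm Q) = Fintype.card Q := by
  rw [nrm, map_sum, Finset.sum_congr rfl (fun q _ => aug_of q)]
  simp

theorem coeff_nrm [Fintype Q] (x : Q) : (nrm Q).coeff x = 1 := by
  classical
  rw [nrm, MonoidAlgebra.coeff_sum, Finsupp.finsetSum_apply]
  simp [MonoidAlgebra.of_apply, MonoidAlgebra.coeff_single, Finsupp.single_apply]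

/-- an element fixed by all group elements with augmentation `|Q|` is the norm element -/
theorem eq_nrm_of_mul_of [Fintype Q] (δ : MonoidAlgebra ℤ Q)
    (h : ∀ q, δ * MonoidAlgebra.of ℤ Q q = δ) (hε : aug Q δ = Fintype.card Q) : δ = nrm Q := by
  classical
  have hc : ∀ x : Q, δ.coeff x = δ.coeff 1 := by
    intro x
    have h1 := congrArg (fun y : MonoidAlgebra ℤ Q => y.coeff 1) (h x⁻¹)
    simp only [MonoidAlgebra.of_apply, MonoidAlgebra.coeff_mul_single_apply, inv_inv, one_mul,
      mul_one] at h1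
    exact h1
  have hδ : δ = δ.coeff 1 • nrm Q := by
    apply MonoidAlgebra.coeff_injective
    ext x
    rw [MonoidAlgebra.coeff_smul, Finsupp.smul_apply, coeff_nrm, smul_eq_mul, mul_one, hc]
  have h2 : aug Q δ = δ.coeff 1 * Fintype.card Q := by
    conv_lhs => rw [hδ]
    rw [map_zsmul, aug_nrm, smul_eq_mul]
  have hcard : (Fintype.card Q : ℤ) ≠ 0 := by
    exact_mod_cast Fintype.card_ne_zero
  have h3 : δ.coeff 1 = 1 := by
    rw [hε] at h2
    have h4 : δ.coeff 1 * (Fintype.card Q : ℤ) = 1 * (Fintype.card Q : ℤ) := by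
      rw [one_mul]; exact h2.symm
    exact mul_right_cancel₀ hcard h4
  rw [hδ, h3, one_smul]

end bmod

/-- the determinant trick -/
theorem det_smul_eq_zero {R M J : Type*} [CommRing R] [AddCommGroup M] [Module R M]
    [Fintype J] [DecidableEq J] (X : Matrix J J R) (m : J → M)
    (h : ∀ j, ∑ k, X j k • m k = 0) (k : J) : X.det • m k = 0 := by
  have h1 : ∀ l, (X.det • (1 : Matrix J J R)) k l • m l
      = ∑ j, (X.adjugate k j * X j l) • m l := by
    intro l
    rw [← Matrix.adjugate_mul, Matrix.mul_apply, Finset.sum_smul]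
  have h2 : X.det • m k = ∑ l, (X.det • (1 : Matrix J J R)) k l • m l := by
    rw [Finset.sum_eq_single k]
    · simp
    · intro l _ hl
      simp [Matrix.one_apply_ne' hl]
    · simp
  rw [h2]
  simp_rw [h1]
  rw [Finset.sum_comm]
  apply Finset.sum_eq_zero
  intro j _
  simp_rw [mul_smul]
  rw [← Finset.smul_sum, h j, smul_zero]

end Cfsg.Agent.Lib.Helper57.PITMod
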