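import Mathlib
import Cfsg.Agent.Lib.Helper18.ReeMultStmt

set_option autoImplicit false

/-! Piece LCONJ of S2113: conjugation of the canonical lift `lft s₁ u v` by a lift of
`x t u₀ v₀`. -/

namespace Cfsg.Agent.Lib.Helper57.ReeMultLCONJ

open Cfsg.Agent.Lib.Helper18.ReeMultStmt Cfsg.Agent.Lib.Helper18

universe u v w

theorem grp_b {Γ : Type*} [Group Γ] (g g' A B B' C B'' : Γ)
    (h3 : ∀ k : Γ, k * (g' * A * g'⁻¹ * B'⁻¹) = (g' * A * g'⁻¹ * B'⁻¹) * k)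
    (h4 : g * C = C * g) (h5 : B' = A * C) (h6 : B * C = B'') :
    (g * g') * A * (g * g')⁻¹ * B''⁻¹ = (g * A * g⁻¹ * B⁻¹) * (g' * A * g'⁻¹ * B'⁻¹) := by
  have h1 : g' * A * g'⁻¹ = (g' * A * g'⁻¹ * B'⁻¹) * B' := by group
  have h2 : g * A * g⁻¹ = (g * A * g⁻¹ * B⁻¹) * B := by group
  generalize g' * A * g'⁻¹ * B'⁻¹ = D' at h1 h3 ⊢
  generalize g * A * g⁻¹ * B⁻¹ = D at h2 ⊢
  calc (g * g') * A * (g * g')⁻¹ * B''⁻¹ = g * (g' * A * g'⁻¹) * g⁻¹ * B''⁻¹ := by group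
    _ = g * (D' * (A * C)) * g⁻¹ * B''⁻¹ := by rw [h1, h5]
    _ = (g * D') * A * C * g⁻¹ * B''⁻¹ := by group
    _ = D' * (g * A * g⁻¹) * (g * C) * g⁻¹ * B''⁻¹ := by rw [h3 g]; group
    _ = D' * (D * B) * (C * g) * g⁻¹ * B''⁻¹ := by rw [h2, h4]
    _ = D' * D * (B * C) * B''⁻¹ := by group
    _ = D' * D := by rw [h6]; group
    _ = D * D' := (h3 D).symm

theorem grp_c {Γ : Type*} [Group Γ] (h g A B Bm : Γ) (hA : h * A * h⁻¹ = A)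
    (hB : h * B * h⁻¹ = Bm)
    (hD : ∀ k : Γ, k * (g * A * g⁻¹ * B⁻¹) = (g * A * g⁻¹ * B⁻¹) * k) :
    (h * g * h⁻¹) * A * (h * g * h⁻¹)⁻¹ * Bm⁻¹ = g * A * g⁻¹ * B⁻¹ := by
  have hA' : h⁻¹ * A * h = A := by
    calc h⁻¹ * A * h = h⁻¹ * (h * A * h⁻¹) * h := by rw [hA]
      _ = A := by group
  have h2 : g * A * g⁻¹ = (g * A * g⁻¹ * B⁻¹) * B := by group
  generalize g * A * g⁻¹ * B⁻¹ = D at h2 hD ⊢
  calc (h * g * h⁻¹) * A * (h * g * h⁻¹)⁻¹ * Bm⁻¹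
      = h * (g * (h⁻¹ * A * h) * g⁻¹) * h⁻¹ * Bm⁻¹ := by group
    _ = h * (g * A * g⁻¹) * h⁻¹ * Bm⁻¹ := by rw [hA']
    _ = h * (D * B) * h⁻¹ * Bm⁻¹ := by rw [h2]
    _ = (h * D) * (h⁻¹ * (h * B * h⁻¹)) * Bm⁻¹ := by group
    _ = (D * h) * (h⁻¹ * Bm) * Bm⁻¹ := by rw [hD h, hB]
    _ = D := by group

section

variable {Γ : Type w} [Group Γ] {G : Type u} [Group G] {K : Type v} [Field K] [Fintype K] {m : ℕ}
    {φ : K →+* K} {x : K → K → K → G} {e : K → G} {σ : Γ →* G}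

theorem x_conj (hpar : ReeOutStmt.OPar G K m φ x e) (t u₀ v₀ u : K) :
    x t u₀ v₀ * x 0 u 0 = x 0 u (u * t) * x t u₀ v₀ := by
  have xeq : ∀ a b c a' b' c' : K, a = a' → b = b' → c = c' → x a b c = x a' b' c' := by
    intro a b c a' b' c' h1 h2 h3; rw [h1, h2, h3]
  have h0 : φ 0 = 0 := map_zero φ
  rw [hpar.x_mul, hpar.x_mul, h0]
  apply xeq <;> ring

theorem core (hpar : ReeOutStmt.OPar G K m φ x e) (hsurj : Function.Surjective σ)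
    (hc : σ.ker ≤ Subgroup.center Γ)
    (hZ : ∀ v t u v', cm σ hsurj (x 0 0 v) (x t u v') = 1)
    (hA : ∀ u v u' v', cm σ hsurj (x 0 u v) (x 0 u' v') = 1)
    (L : K → K → Γ) (hmap : ∀ u v, σ (L u v) = x 0 u v)
    (hmul : ∀ u v u' v', L u v * L u' v' = L (u + u') (v + v'))
    (hconjH : ∀ (γ : Γ) (s : K), s ≠ 0 → σ γ = e s →
      ∀ u v, γ * L u v * γ⁻¹ = L (φ s ^ 3 / s * u) (s * v))
    (γ : Γ) (t u₀ v₀ : K) (hγ : σ γ = x t u₀ v₀) (u v : K) :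
    γ * L u v * γ⁻¹ = L u (v + u * t) := by
  have hZc : ∀ (g : Γ) (t u v' w : K), σ g = x t u v' → g * L 0 w = L 0 w * g := by
    intro g t u v' w hg
    apply comm_of_cm σ hsurj hc
    rw [hg, hmap, ← cm_inv, hZ, inv_one]
  have hAc : ∀ (g : Γ) (a b u v : K), σ g = x 0 a b → g * L u v = L u v * g := by
    intro g a b u v hg
    apply comm_of_cm σ hsurj hc
    rw [hg, hmap]
    exact hA _ _ _ _
  have hDc : ∀ (g : Γ) (t a b u : K), σ g = x t a b → ∀ k : Γ,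
      k * (g * L u 0 * g⁻¹ * (L u (u * t))⁻¹) = (g * L u 0 * g⁻¹ * (L u (u * t))⁻¹) * k := by
    intro g t a b u hg k
    have hker : g * L u 0 * g⁻¹ * (L u (u * t))⁻¹ ∈ σ.ker := by
      rw [MonoidHom.mem_ker, map_mul, map_mul, map_mul, map_inv, map_inv, hg, hmap, hmap,
        x_conj hpar]
      group
    exact Subgroup.mem_center_iff.mp (hc hker) k
  have hd : ∀ (g : Γ) (a b u : K), σ g = x 0 a b →
      g * L u 0 * g⁻¹ * (L u (u * 0))⁻¹ = 1 := by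
    intro g a b u hg
    rw [hAc g a b u 0 hg, mul_inv_cancel_right, mul_zero, mul_inv_cancel]
  have hb : ∀ (g g' : Γ) (t t' a b a' b' u : K), σ g = x t a b → σ g' = x t' a' b' →
      (g * g') * L u 0 * (g * g')⁻¹ * (L u (u * (t + t')))⁻¹ =
        (g * L u 0 * g⁻¹ * (L u (u * t))⁻¹) * (g' * L u 0 * g'⁻¹ * (L u (u * t'))⁻¹) := by
    intro g g' t t' a b a' b' u hg hg'
    apply grp_b g g' (L u 0) (L u (u * t)) (L u (u * t')) (L 0 (u * t')) (L u (u * (t + t')))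
      (hDc g' t' a' b' u hg') (hZc g t a b _ hg)
    · rw [hmul, add_zero, zero_add]
    · rw [hmul, add_zero, mul_add]
  have key : γ * L u 0 * γ⁻¹ * (L u (u * t))⁻¹ = 1 := by
    have hg2 : σ (γ * γ) = x (t + t) (u₀ + u₀ - t * φ t ^ 3)
        (v₀ + v₀ - u₀ * t - t ^ 2 * φ t ^ 3 + t * t * φ t ^ 3) := by
      rw [map_mul, hγ, hpar.x_mul]
    obtain ⟨a3, b3, hg3⟩ : ∃ a b, σ (γ * γ * γ) = x (t + t + t) a b :=
      ⟨_, _, by rw [map_mul, hg2, hγ, hpar.x_mul]⟩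
    have hb1 := hb γ γ t t u₀ v₀ u₀ v₀ u hγ hγ
    have hb2 := hb (γ * γ) γ (t + t) t _ _ u₀ v₀ u hg2 hγ
    have h3t : t + t + t = 0 := by
      have h3 : (3 : K) = 0 := hpar.char3
      linear_combination t * h3
    rw [h3t] at hg3 hb2
    rw [hd (γ * γ * γ) a3 b3 u hg3, hb1] at hb2
    have hne : (-1 : K) ≠ 0 := neg_ne_zero.2 one_ne_zero
    have hχ : (-1 : K) ^ 2 / φ (-1) ^ 3 = -1 := by rw [map_neg, map_one]; norm_num
    have hψ : φ (-1) ^ 3 / (-1 : K) = 1 := by rw [map_neg, map_one]; norm_num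
    have hh : σ (sec σ hsurj (e (-1))) = e (-1) := sec_spec σ hsurj _
    generalize sec σ hsurj (e (-1)) = h at hh
    have hγ' : σ (h * γ * h⁻¹) = x (-t) (φ (-1) ^ 3 / (-1) * u₀) (-1 * v₀) := by
      rw [map_mul, map_mul, map_inv, hh, hγ, hpar.e_x (-1) hne, mul_inv_cancel_right, hχ,
        neg_one_mul t]
    have hL0 : h * L u 0 * h⁻¹ = L u 0 := by
      rw [hconjH h (-1) hne hh, hψ, one_mul, mul_zero]
    have hLt : h * L u (u * t) * h⁻¹ = L u (u * -t) := by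
      rw [hconjH h (-1) hne hh, hψ, one_mul]
      congr 1
      ring
    have hc1 := grp_c h γ (L u 0) (L u (u * t)) (L u (u * -t)) hL0 hLt (hDc γ t u₀ v₀ u hγ)
    have hb3 := hb γ (h * γ * h⁻¹) t (-t) u₀ v₀ _ _ u hγ hγ'
    obtain ⟨a0, b0, hg0⟩ : ∃ a b, σ (γ * (h * γ * h⁻¹)) = x (t + -t) a b :=
      ⟨_, _, by rw [map_mul, hγ, hγ', hpar.x_mul]⟩
    rw [add_neg_cancel] at hg0 hb3
    rw [hd _ a0 b0 u hg0, hc1] at hb3
    generalize γ * L u 0 * γ⁻¹ * (L u (u * t))⁻¹ = D at hb2 hb3 ⊢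
    calc D = (D * D * D) * (D * D)⁻¹ := by group
      _ = 1 := by rw [← hb2, ← hb3]; group
  have key' : γ * L u 0 * γ⁻¹ = L u (u * t) := mul_inv_eq_one.1 key
  have e1 : L u v = L u 0 * L 0 v := by rw [hmul, add_zero, zero_add]
  have e2 : L u (v + u * t) = L u (u * t) * L 0 v := by rw [hmul, add_zero, add_comm]
  rw [e1, e2, ← key']
  have h4 := hZc γ t u₀ v₀ v hγ
  calc γ * (L u 0 * L 0 v) * γ⁻¹ = γ * L u 0 * γ⁻¹ * (γ * L 0 v) * γ⁻¹ := by group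
    _ = γ * L u 0 * γ⁻¹ * (L 0 v * γ) * γ⁻¹ := by rw [h4]
    _ = γ * L u 0 * γ⁻¹ * L 0 v := by group

end

theorem main (hLMAP : LMAP.{u, v, w}) (hLMUL : LMUL.{u, v, w}) (hLCONJH : LCONJH.{u, v, w}) :
    LCONJ.{u, v, w} := by
  intro Γ _ G _ K _ _ m φ x e σ E s₁ hs0 hs3 hZ hA γ t u₀ v₀ hγ u v
  exact core E.par E.surj E.cen hZ hA (lft σ E.surj φ x e s₁)
    (hLMAP Γ G K m φ x e σ E s₁ hs0 hs3) (hLMUL Γ G K m φ x e σ E s₁ hs0 hs3 hA)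
    (hLCONJH Γ G K m φ x e σ E s₁ hs0) γ t u₀ v₀ hγ u v

end Cfsg.Agent.Lib.Helper57.ReeMultLCONJ
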