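import Mathlib
import Cfsg.Agent.Lib.Helper44.TPStmt

set_option autoImplicit false

/-!
S5973, piece SQNEG1: `q ≡ 1 (mod 4)`, `x` an isometry of the standard plus form with
`x * x = -1`: the eigenspace of `x` for a square root of `-1` is totally singular of finrank `d`
and each of its subspaces is invariant.
-/

universe u

open scoped Matrix

namespace Cfsg.Agent.Lib.Helper57.TPSQNEG1

open Cfsg Cfsg.Agent.Lib.Helper44.TPStmt

/-- the form is homogeneous of degree two -/
theorem q_smul (d : ℕ) (F : Type u) [Field F] (c : F) (v : J d → F) :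
    Cfsg.quadFormPlus d F (c • v) = c * c * Cfsg.quadFormPlus d F v := by
  unfold Cfsg.quadFormPlus
  rw [Finset.mul_sum]
  apply Finset.sum_congr rfl
  intro i _
  simp only [Pi.smul_apply, smul_eq_mul]
  ring

/-- a subspace of any smaller finrank -/
theorem exists_le_finrank {F : Type u} [Field F] {V : Type u} [AddCommGroup V] [Module F V]
    [FiniteDimensional F V] {W : Submodule F V} {k : ℕ} (hk : k ≤ Module.finrank F W) :
    ∃ W' ≤ W, Module.finrank F W' = k := by
  set b := Module.finBasis F W with hb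
  set f : Fin k → V := fun i => (b (Fin.castLE hk i) : V) with hf
  refine ⟨Submodule.span F (Set.range f), ?_, ?_⟩
  · rw [Submodule.span_le]
    rintro _ ⟨i, rfl⟩
    exact (b _).2
  · have h1 : LinearIndependent F (fun i => (b i : V)) :=
      b.linearIndependent.map' W.subtype (Submodule.ker_subtype W)
    have hli : LinearIndependent F f := h1.comp _ (Fin.castLE_injective hk)
    rw [finrank_span_eq_card hli, Fintype.card_fin]

/-- the eigenspace of `M` for `c` (as a set of vectors) -/
def eig {F : Type u} [Field F] {d : ℕ} (M : Matrix (J d) (J d) F) (c : F) :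
    Submodule F (J d → F) where
  carrier := {v | M *ᵥ v = c • v}
  add_mem' := by
    intro a b ha hb
    simp only [Set.mem_ofPred_eq] at ha hb ⊢
    rw [Matrix.mulVec_add, ha, hb, smul_add]
  zero_mem' := by
    simp
  smul_mem' := by
    intro t a ha
    simp only [Set.mem_ofPred_eq] at ha ⊢
    rw [Matrix.mulVec_smul, ha, smul_comm]

theorem mem_eig {F : Type u} [Field F] {d : ℕ} (M : Matrix (J d) (J d) F) (c : F)
    (v : J d → F) : v ∈ eig M c ↔ M *ᵥ v = c • v := Iff.rfl

/-- an eigenspace for a square root of `-1` of an isometry is totally singular (odd `q`) -/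
theorem eig_ts {F : Type u} [Field F] {d : ℕ} (h2 : (2 : F) ≠ 0)
    (M : Matrix (J d) (J d) F)
    (hM : ∀ v : J d → F, Cfsg.quadFormPlus d F (M *ᵥ v) = Cfsg.quadFormPlus d F v)
    (c : F) (hc : c * c = -1) : TSub d F (eig M c) := by
  intro v hv
  rw [mem_eig] at hv
  have h1 := hM v
  rw [hv, q_smul, hc] at h1
  have h3 : (2 : F) * Cfsg.quadFormPlus d F v = 0 := by linear_combination -h1
  rcases mul_eq_zero.mp h3 with h | h
  · exact absurd h h2
  · exact h

theorem main : Top.{u} → TsHalf.{u} → SqNeg1.{u} := by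
  intro hTop hHalf F _ _ hq d m hmd x hx hx2
  classical
  have hsq : IsSquare (-1 : F) := by
    rw [FiniteField.isSquare_neg_one_iff]
    omega
  obtain ⟨ι, hι⟩ := hsq
  have hιι : ι * ι = -1 := hι.symm
  have h2 : (2 : F) ≠ 0 := by
    apply Ring.two_ne_zero
    intro h
    have := FiniteField.even_card_iff_char_two.mp h
    omega
  set M : Matrix (J d) (J d) F := (x : Matrix (J d) (J d) F) with hMdef
  have hMM : M * M = (-1 : F) • (1 : Matrix (J d) (J d) F) := by
    rw [← hx2, pow_two]
    rfl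
  have hMMv : ∀ v : J d → F, M *ᵥ (M *ᵥ v) = -v := by
    intro v
    rw [Matrix.mulVec_mulVec, hMM, Matrix.smul_mulVec, Matrix.one_mulVec, neg_one_smul]
  have hiso : ∀ v : J d → F,
      Cfsg.quadFormPlus d F (M *ᵥ v) = Cfsg.quadFormPlus d F v := by
    intro v
    exact hx v v
  have hts1 : TSub d F (eig M ι) := eig_ts h2 M hiso ι hιι
  have hts2 : TSub d F (eig M (-ι)) := eig_ts h2 M hiso (-ι) (by rw [neg_mul_neg, hιι])
  have hsup : eig M ι ⊔ eig M (-ι) = ⊤ := by
    rw [eq_top_iff]
    intro v _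
    have ha : (2 : F)⁻¹ • (v - ι • (M *ᵥ v)) ∈ eig M ι := by
      apply Submodule.smul_mem
      rw [mem_eig, Matrix.mulVec_sub, Matrix.mulVec_smul, hMMv, smul_sub, smul_smul, hιι]
      simp only [smul_neg, neg_smul, one_smul, sub_neg_eq_add]
      rw [add_comm]
    have hb : (2 : F)⁻¹ • (v + ι • (M *ᵥ v)) ∈ eig M (-ι) := by
      apply Submodule.smul_mem
      rw [mem_eig, Matrix.mulVec_add, Matrix.mulVec_smul, hMMv, smul_add, smul_smul,
        neg_mul, hιι]
      simp only [smul_neg, neg_smul, one_smul, neg_neg]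
      rw [add_comm]
    have hv : v = (2 : F)⁻¹ • (v - ι • (M *ᵥ v)) + (2 : F)⁻¹ • (v + ι • (M *ᵥ v)) := by
      rw [← smul_add]
      have : v - ι • (M *ᵥ v) + (v + ι • (M *ᵥ v)) = (2 : F) • v := by
        rw [two_smul]; abel
      rw [this, smul_smul, inv_mul_cancel₀ h2, one_smul]
    rw [hv]
    exact Submodule.add_mem _ (Submodule.mem_sup_left ha) (Submodule.mem_sup_right hb)
  have hnd : NDeg d F ⊤ := (hTop F d).1
  have hf1 := hHalf F d ⊤ (eig M ι) hnd le_top hts1
  have hf2 := hHalf F d ⊤ (eig M (-ι)) hnd le_top hts2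
  have htop : Module.finrank F ↥(⊤ : Submodule F (J d → F)) = 2 * d := by
    rw [finrank_top, Module.finrank_fintype_fun_eq_card, Fintype.card_sum, Fintype.card_fin]
    ring
  have hle := Submodule.finrank_add_le_finrank_add_finrank (eig M ι) (eig M (-ι))
  rw [hsup, htop] at hle
  rw [htop] at hf1 hf2
  have hd : m ≤ Module.finrank F ↥(eig M ι) := by omega
  obtain ⟨W, hW, hWm⟩ := exists_le_finrank hd
  refine ⟨W, hWm, fun w hw => hts1 w (hW hw), ?_⟩
  intro y hy
  obtain ⟨w, hw, rfl⟩ := hy
  have h1 : M *ᵥ w = ι • w := (mem_eig M ι w).mp (hW hw)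
  rw [Matrix.toLin'_apply, h1]
  exact Submodule.smul_mem _ _ hw

end Cfsg.Agent.Lib.Helper57.TPSQNEG1
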