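import Mathlib

set_option autoImplicit false

namespace Cfsg.Agent.Lib.Helper57.TwoPrimes

open Real in
/-- A variant of Mathlib's `Bertrand.real_main_inequality` with an extra factor `2 * x`. -/
theorem real_main_inequality {x : ℝ} (x_large : (512 : ℝ) ≤ x) :
    (2 * x) * x * (2 * x) ^ √(2 * x) * 4 ^ (2 * x / 3) ≤ 4 ^ x := by
  let f : ℝ → ℝ := fun x => (log 2 + 2 * log x) + √(2 * x) * log (2 * x) - log 4 / 3 * x
  have hf' : ∀ x, 0 < x → 0 < (2 * x) * x * (2 * x) ^ √(2 * x) / 4 ^ (x / 3) := fun x h =>
    div_pos (mul_pos (mul_pos (mul_pos two_pos h) h) (rpow_pos_of_pos (mul_pos two_pos h) _))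
      (rpow_pos_of_pos four_pos _)
  have hf : ∀ x, 0 < x → f x = log ((2 * x) * x * (2 * x) ^ √(2 * x) / 4 ^ (x / 3)) := by
    intro x h5
    have h6 := mul_pos (zero_lt_two' ℝ) h5
    have h7 := rpow_pos_of_pos h6 (√(2 * x))
    have h8 : 0 < (2 * x) * x := mul_pos h6 h5
    rw [log_div (mul_pos h8 h7).ne' (rpow_pos_of_pos four_pos _).ne', log_mul h8.ne' h7.ne',
      log_rpow h6, log_rpow zero_lt_four, log_mul h6.ne' h5.ne', log_mul two_ne_zero h5.ne']
    simp only [f]
    rw [log_mul two_ne_zero h5.ne']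
    ring
  have h5 : 0 < x := lt_of_lt_of_le (by norm_num1) x_large
  have key : f x ≤ 0 := by
    have h : ConcaveOn ℝ (Set.Ioi 0.5) f := by
      apply ConcaveOn.sub
      · apply ConcaveOn.add
        · apply ConcaveOn.add
          · exact concaveOn_const _ (convex_Ioi 0.5)
          · apply ConcaveOn.smul (by norm_num)
            exact strictConcaveOn_log_Ioi.concaveOn.subset
              (Set.Ioi_subset_Ioi (by norm_num)) (convex_Ioi 0.5)
        convert!
          ((strictConcaveOn_sqrt_mul_log_Ioi.concaveOn.comp_linearMap ((2 : ℝ) • LinearMap.id)))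
          using 1
        ext x
        simp only [Set.mem_Ioi, Set.mem_preimage, LinearMap.smul_apply,
          LinearMap.id_coe, id_eq, smul_eq_mul]
        rw [← mul_lt_mul_iff_right₀ (two_pos)]
        norm_num1
        rfl
      apply ConvexOn.smul
      · refine div_nonneg (log_nonneg (by norm_num1)) (by norm_num1)
      · exact convexOn_id (convex_Ioi (0.5 : ℝ))
    suffices ∃ x1 x2, 0.5 < x1 ∧ x1 < x2 ∧ x2 ≤ x ∧ 0 ≤ f x1 ∧ f x2 ≤ 0 by
      obtain ⟨x1, x2, h1, h2, h0, h3, h4⟩ := this
      exact (h.right_le_of_le_left'' h1 ((h1.trans h2).trans_le h0) h2 h0 (h4.trans h3)).trans h4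
    refine ⟨18, 512, by norm_num1, by norm_num1, x_large, ?_, ?_⟩
    · have : √(2 * 18 : ℝ) = 6 := (sqrt_eq_iff_mul_self_eq_of_pos (by norm_num1)).mpr (by norm_num1)
      rw [hf _ (by norm_num1), log_nonneg_iff (by positivity), this, one_le_div (by positivity)]
      have h4 : (4 : ℝ) ^ ((18 : ℝ) / 3) = 4 ^ (6 : ℕ) := by
        rw [← rpow_natCast]; norm_num
      have h36 : ((2 : ℝ) * 18) ^ (6 : ℝ) = 36 ^ (6 : ℕ) := by
        rw [← rpow_natCast]; norm_num
      rw [h4, h36]
      norm_num
    · have : √(2 * 512) = 32 :=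
        (sqrt_eq_iff_mul_self_eq_of_pos (by norm_num1)).mpr (by norm_num1)
      rw [hf _ (by norm_num1), log_nonpos_iff (hf' _ (by norm_num1)).le, this,
          div_le_one (by positivity)]
      have e1 : ((2 : ℝ) * 512) * 512 * (2 * 512) ^ (32 : ℝ) = 2 ^ (339 : ℝ) := by
        have : ((2 : ℝ) * 512) ^ (32 : ℝ) = 2 ^ (320 : ℕ) := by
          rw [show ((2 : ℝ) * 512) = 2 ^ (10 : ℕ) by norm_num, show (32 : ℝ) = ((32 : ℕ) : ℝ) by norm_num,
            rpow_natCast, ← pow_mul]
        rw [this, show (339 : ℝ) = ((339 : ℕ) : ℝ) by norm_num, rpow_natCast,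
          show ((2 : ℝ) * 512) * 512 = 2 ^ (19 : ℕ) by norm_num, ← pow_add]
      have e2 : (4 : ℝ) ^ ((512 : ℝ) / 3) = 2 ^ ((1024 : ℝ) / 3) := by
        rw [show (4 : ℝ) = 2 ^ (2 : ℝ) by rw [rpow_two]; norm_num, ← rpow_mul (by norm_num)]
        norm_num
      rw [e1, e2]
      apply rpow_le_rpow_of_exponent_le <;> norm_num
  have h4x : (0 : ℝ) < 4 ^ x := rpow_pos_of_pos four_pos x
  have hle : (2 * x) * x * (2 * x) ^ √(2 * x) / 4 ^ (x / 3) ≤ 1 := by
    rw [hf x h5] at key
    exact (log_nonpos_iff (hf' x h5).le).1 key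
  have h43 : (0 : ℝ) < 4 ^ (x / 3) := rpow_pos_of_pos four_pos _
  rw [div_le_one h43] at hle
  calc (2 * x) * x * (2 * x) ^ √(2 * x) * 4 ^ (2 * x / 3)
      ≤ 4 ^ (x / 3) * 4 ^ (2 * x / 3) := by gcongr
    _ = 4 ^ x := by
        rw [← rpow_add four_pos]
        congr 1
        ring

open Nat in
theorem main_inequality {n : ℕ} (n_large : 512 ≤ n) :
    (2 * n) * n * (2 * n) ^ sqrt (2 * n) * 4 ^ (2 * n / 3) ≤ 4 ^ n := by
  rw [← @cast_le ℝ]
  simp only [cast_mul, cast_pow, ← Real.rpow_natCast, cast_ofNat]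
  refine _root_.trans ?_ (real_main_inequality (by exact_mod_cast n_large))
  gcongr
  · have n2_pos : 0 < 2 * n := by positivity
    exact mod_cast n2_pos
  · exact_mod_cast Real.nat_sqrt_le_real_sqrt
  · norm_num1
  · exact cast_div_le.trans (by norm_cast)

open Nat in
/-- Upper bound for the central binomial coefficient when `(n, 2n]` holds at most one prime. -/
theorem centralBinom_le_of_one_prime (n : ℕ) (n_large : 2 < n) (p0 : ℕ)
    (one_prime : ∀ p : ℕ, p.Prime → n < p → p = p0 ∨ 2 * n < p) :
    centralBinom n ≤ (2 * n) ^ sqrt (2 * n) * 4 ^ (2 * n / 3) * (2 * n) := by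
  have n_pos : 0 < n := (Nat.zero_le _).trans_lt n_large
  have n2_pos : 1 ≤ 2 * n := mul_pos (zero_lt_two' ℕ) n_pos
  let f : ℕ → ℕ := fun x => x ^ n.centralBinom.factorization x
  have hsplit : centralBinom n =
      (∏ x ∈ Finset.range (2 * n / 3 + 1), f x) *
        ∏ x ∈ Finset.range (2 * n + 1) \ Finset.range (2 * n / 3 + 1), f x := by
    have hsub : Finset.range (2 * n / 3 + 1) ⊆ Finset.range (2 * n + 1) := by
      intro x hx
      rw [Finset.mem_range] at hx ⊢
      have : 2 * n / 3 ≤ 2 * n := Nat.div_le_self _ _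
      omega
    rw [← n.prod_pow_factorization_centralBinom]
    exact ((Finset.prod_sdiff hsub).symm.trans (mul_comm _ _))
  rw [hsplit]
  apply mul_le_mul'
  · -- the part copied from Mathlib's proof of Bertrand's postulate
    let S := {p ∈ Finset.range (2 * n / 3 + 1) | Nat.Prime p}
    have : ∏ x ∈ S, f x = ∏ x ∈ Finset.range (2 * n / 3 + 1), f x := by
      refine Finset.prod_filter_of_ne fun p _ h => ?_
      contrapose h; dsimp only [f]
      rw [factorization_eq_zero_of_not_prime n.centralBinom h, _root_.pow_zero]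
    rw [← this, ← Finset.prod_filter_mul_prod_filter_not S (· ≤ sqrt (2 * n))]
    apply mul_le_mul'
    · refine (Finset.prod_le_prod' fun p _ => (?_ : f p ≤ 2 * n)).trans ?_
      · exact pow_factorization_choose_le (mul_pos two_pos n_pos)
      have : (Finset.Icc 1 (sqrt (2 * n))).card = sqrt (2 * n) := by
        rw [card_Icc, Nat.add_sub_cancel]
      rw [Finset.prod_const]
      refine pow_right_mono₀ n2_pos ((Finset.card_le_card fun x hx => ?_).trans this.le)
      obtain ⟨h1, h2⟩ := Finset.mem_filter.1 hx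
      exact Finset.mem_Icc.mpr ⟨(Finset.mem_filter.1 h1).2.one_lt.le, h2⟩
    · refine le_trans ?_ (primorial_le_four_pow (2 * n / 3))
      refine (Finset.prod_le_prod' fun p hp => (?_ : f p ≤ p)).trans ?_
      · obtain ⟨h1, h2⟩ := Finset.mem_filter.1 hp
        refine (pow_right_mono₀ (Finset.mem_filter.1 h1).2.one_lt.le ?_).trans (pow_one p).le
        exact Nat.factorization_choose_le_one (sqrt_lt'.mp <| not_le.1 h2)
      refine Finset.prod_le_prod_of_subset_of_one_le' (Finset.filter_subset _ _) ?_
      exact fun p hp _ => (Finset.mem_filter.1 hp).2.one_lt.le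
  · have hR : ∀ x ∈ Finset.range (2 * n + 1) \ Finset.range (2 * n / 3 + 1),
        f x = if x = p0 then f x else 1 := by
      intro x hx
      rw [Finset.mem_sdiff, Finset.mem_range, Finset.mem_range] at hx
      obtain ⟨hx1, hx2⟩ := hx
      by_cases hxp : x = p0
      · rw [if_pos hxp]
      · rw [if_neg hxp]
        dsimp only [f]
        by_cases hpr : x.Prime
        · have hxn : x ≤ n := by
            by_contra hcon
            rcases one_prime x hpr (by omega) with h | h
            · exact hxp h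
            · omega
          have h2x : 2 * n < 3 * x := by
            have := Nat.lt_of_div_lt_div (show 2 * n / 3 < (3 * x) / 3 by
              rw [Nat.mul_div_cancel_left _ (by norm_num : 0 < 3)]; omega)
            exact this
          rw [factorization_centralBinom_of_two_mul_self_lt_three_mul n_large hxn h2x,
            _root_.pow_zero]
        · rw [factorization_eq_zero_of_not_prime n.centralBinom hpr, _root_.pow_zero]
    rw [Finset.prod_congr rfl hR, Finset.prod_ite_eq']
    split_ifs
    · exact pow_factorization_choose_le (mul_pos two_pos n_pos)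
    · exact n2_pos

/-- For `n ≥ 512` there are two primes in `(n, 2n]`. -/
theorem two_primes_large (n : ℕ) (n_large : 512 ≤ n) :
    ∃ p q : ℕ, p.Prime ∧ q.Prime ∧ n < q ∧ q < p ∧ p ≤ 2 * n := by
  obtain ⟨p0, hp0, h1, h2⟩ := Nat.exists_prime_lt_and_le_two_mul n (by omega)
  by_contra hcon
  have one_prime : ∀ p : ℕ, p.Prime → n < p → p = p0 ∨ 2 * n < p := by
    intro p hp hnp
    by_contra h
    have hne : p ≠ p0 := fun e => h (Or.inl e)
    have hle : p ≤ 2 * n := by
      by_contra h'
      exact h (Or.inr (by omega))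
    rcases lt_or_gt_of_ne hne with hlt | hgt
    · exact hcon ⟨p0, p, hp0, hp, hnp, hlt, h2⟩
    · exact hcon ⟨p, p0, hp, hp0, h1, hgt, hle⟩
  have hlow : 4 ^ n < n * n.centralBinom :=
    Nat.four_pow_lt_mul_centralBinom n (le_trans (by norm_num1) n_large)
  have hup := centralBinom_le_of_one_prime n (by omega) p0 one_prime
  have hmain := main_inequality n_large
  have : n * n.centralBinom ≤ 4 ^ n := by
    calc n * n.centralBinom ≤ n * ((2 * n) ^ Nat.sqrt (2 * n) * 4 ^ (2 * n / 3) * (2 * n)) :=
          Nat.mul_le_mul_left n hup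
      _ = (2 * n) * n * (2 * n) ^ Nat.sqrt (2 * n) * 4 ^ (2 * n / 3) := by ring
      _ ≤ 4 ^ n := hmain
  omega

theorem two_primes_step (a b c : ℕ) (ha : a.Prime) (hb : b.Prime) (hab : a < b) (hc : c ≤ 2 * a)
    (N : ℕ) (h1 : b ≤ N) (h2 : N < c) :
    ∃ p q : ℕ, p.Prime ∧ q.Prime ∧ q < p ∧ p ≤ N ∧ N < 2 * q :=
  ⟨b, a, hb, ha, hab, h1, by omega⟩

/-- For `N ≥ 11` there are two primes `q < p` in `(N/2, N]`. -/
theorem two_primes (N : ℕ) (hN : 11 ≤ N) :
    ∃ p q : ℕ, p.Prime ∧ q.Prime ∧ q < p ∧ p ≤ N ∧ N < 2 * q := by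
  rcases lt_or_ge N 1024 with hlt | hge
  · rcases lt_or_ge N 13 with h | h
    · exact two_primes_step 7 11 13 (by norm_num) (by norm_num) (by norm_num) (by norm_num) N hN h
    rcases lt_or_ge N 19 with h' | h'
    · exact two_primes_step 11 13 19 (by norm_num) (by norm_num) (by norm_num) (by norm_num) N h h'
    rcases lt_or_ge N 23 with h | h
    · exact two_primes_step 13 19 23 (by norm_num) (by norm_num) (by norm_num) (by norm_num) N h' h
    rcases lt_or_ge N 37 with h' | h'
    · exact two_primes_step 19 23 37 (by norm_num) (by norm_num) (by norm_num) (by norm_num) N h h'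
    rcases lt_or_ge N 43 with h | h
    · exact two_primes_step 23 37 43 (by norm_num) (by norm_num) (by norm_num) (by norm_num) N h' h
    rcases lt_or_ge N 73 with h' | h'
    · exact two_primes_step 37 43 73 (by norm_num) (by norm_num) (by norm_num) (by norm_num) N h h'
    rcases lt_or_ge N 83 with h | h
    · exact two_primes_step 43 73 83 (by norm_num) (by norm_num) (by norm_num) (by norm_num) N h' h
    rcases lt_or_ge N 139 with h' | h'
    · exact two_primes_step 73 83 139 (by norm_num) (by norm_num) (by norm_num) (by norm_num) N h h'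
    rcases lt_or_ge N 163 with h | h
    · exact two_primes_step 83 139 163 (by norm_num) (by norm_num) (by norm_num) (by norm_num) N h' h
    rcases lt_or_ge N 277 with h' | h'
    · exact two_primes_step 139 163 277 (by norm_num) (by norm_num) (by norm_num) (by norm_num) N h h'
    rcases lt_or_ge N 317 with h | h
    · exact two_primes_step 163 277 317 (by norm_num) (by norm_num) (by norm_num) (by norm_num) N h' h
    rcases lt_or_ge N 547 with h' | h'
    · exact two_primes_step 277 317 547 (by norm_num) (by norm_num) (by norm_num) (by norm_num) N h h'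
    rcases lt_or_ge N 631 with h | h
    · exact two_primes_step 317 547 631 (by norm_num) (by norm_num) (by norm_num) (by norm_num) N h' h
    · exact two_primes_step 547 631 1094 (by norm_num) (by norm_num) (by norm_num) (by norm_num) N h
        (by omega)
  · obtain ⟨p, q, hp, hq, h1, h2, h3⟩ := two_primes_large (N / 2) (by omega)
    exact ⟨p, q, hp, hq, h2, by omega, by omega⟩

end Cfsg.Agent.Lib.Helper57.TwoPrimes
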