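import Mathlib
import Cfsg.Agent.Lib.Helper41.UnitStmt
import Cfsg.Agent.Lib.Helper40.HPoly
import Cfsg.Agent.Lib.Helper40.PrimeFix
import Cfsg.Agent.Lib.Helper21.SubfROOTMULT

/-!
# S5982 / BADUPOLY
-/

set_option autoImplicit false
universe u

namespace Cfsg.Agent.Lib.Helper57.UnitBADUPOLY

open Polynomial UniqueFactorizationMonoid
open Cfsg.Agent.Lib.Helper40.RecipPoly

theorem main : Cfsg.Agent.Lib.Helper41.UnitStmt.BadUPoly.{u} := by
  intro F _ _ p _ _ q₀ hcard φ hφ r _ hr2 hrp hi n x hx hfix hself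
  classical
  have hr : r.Prime := Fact.out
  have hφ2 : ∀ y, φ (φ y) = y := by
    intro y
    rw [hφ, hφ, ← pow_mul, ← sq, ← hcard, FiniteField.pow_card]
  obtain ⟨b, S, -, -, -, -, -, hdiv, -, hSfix⟩ :=
    Cfsg.Agent.Lib.Helper40.HPoly.gu_cyclo_facts hcard φ hφ hφ2 r hr hr2 hrp
      (orderOf ((q₀ : ℕ) : ZMod r)) rfl
  have hr0 : (r : F) ≠ 0 := Cfsg.Agent.Lib.Helper40.PrimeFix.cast_ne_zero' (p := p) r hrp
  have hss := Cfsg.Agent.Lib.Helper40.SSConj.isSemisimple_toLin' x r hr0 hx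
  have hmult := Cfsg.Agent.Lib.Helper21.SubfROOTMULT.main F n x hss
  rw [hmult] at hfix
  have hχm : x.charpoly.Monic := Matrix.charpoly_monic x
  have hfac := Cfsg.Agent.Lib.Helper40.PrimeFix.factors_of_pow_eq_one (p := p) r hrp x hx
  obtain ⟨L, hL⟩ : ∃ L : F[X], L = X - C 1 := ⟨_, rfl⟩
  obtain ⟨NF, hNF⟩ : ∃ NF : Multiset F[X], NF = normalizedFactors x.charpoly := ⟨_, rfl⟩
  obtain ⟨M2, hM2⟩ : ∃ M2 : Multiset F[X], M2 = NF.filter (fun P => ¬ P = L) := ⟨_, rfl⟩
  obtain ⟨k, hk⟩ : ∃ k : ℕ, k = NF.count L := ⟨_, rfl⟩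
  have hsplit : NF.filter (fun P => P = L) + M2 = NF := by
    rw [hM2]
    exact Multiset.filter_add_not _ _
  have hM1eq : NF.filter (fun P => P = L) = Multiset.replicate k L := by
    rw [hk]
    exact Multiset.filter_eq' NF L
  have hχeq : x.charpoly = L ^ k * M2.prod := by
    rw [← Cfsg.Agent.S2568.prod_nf x.charpoly hχm, ← hNF, ← hsplit, Multiset.prod_add, hM1eq,
      Multiset.prod_replicate]
  have hM2mem : ∀ P ∈ M2, P ∈ normalizedFactors x.charpoly ∧ P ≠ L := by
    intro P hP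
    rw [hM2, Multiset.mem_filter, hNF] at hP
    exact hP
  have hM2irr : ∀ P ∈ M2, Irreducible P := fun P hP =>
    irreducible_of_normalized_factor P (hM2mem P hP).1
  have hM2mon : ∀ P ∈ M2, P.Monic := fun P hP =>
    Cfsg.Agent.S2568.monic_of_mem_nf _ P (hM2mem P hP).1
  have hM2deg : ∀ P ∈ M2, P.natDegree = orderOf ((Fintype.card F : ℕ) : ZMod r) := by
    intro P hP
    rcases hfac P (hM2mem P hP).1 with h | h
    · exact absurd (h.trans hL.symm) (hM2mem P hP).2
    · exact h
  have hLne : L ≠ 0 := by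
    rw [hL]
    exact X_sub_C_ne_zero 1
  have hLmon : L.Monic := by
    rw [hL]
    exact monic_X_sub_C 1
  have hχne : x.charpoly ≠ 0 := hχm.ne_zero
  have hgne : M2.prod ≠ 0 := by
    intro h0
    rw [hχeq, h0, mul_zero] at hχne
    exact hχne rfl
  -- the root multiplicity of `1`
  have hgroot : ¬ IsRoot M2.prod 1 := by
    intro hroot
    have hdvd : L ∣ M2.prod := by
      rw [hL]
      exact dvd_iff_isRoot.mpr hroot
    have hLprime : Prime L := by
      rw [hL]
      exact prime_X_sub_C 1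
    obtain ⟨P, hP, hLP⟩ := Prime.exists_mem_multiset_dvd hLprime hdvd
    have hassoc : Associated L P := hLprime.irreducible.associated_of_dvd (hM2irr P hP) hLP
    exact (hM2mem P hP).2 (eq_of_monic_of_associated hLmon (hM2mon P hP) hassoc).symm
  have hrootmult : x.charpoly.rootMultiplicity 1 = k := by
    have hne : L ^ k * M2.prod ≠ 0 := mul_ne_zero (pow_ne_zero _ hLne) hgne
    rw [hχeq, rootMultiplicity_mul hne, rootMultiplicity_eq_zero hgroot, add_zero, hL,
      rootMultiplicity_X_sub_C_pow]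
  rw [hrootmult] at hfix
  -- degrees
  have hdegg : M2.prod.natDegree = Multiset.card M2 * orderOf ((Fintype.card F : ℕ) : ZMod r) := by
    rw [natDegree_multiset_prod_of_monic M2 hM2mon]
    have h1 : M2.map natDegree =
        Multiset.replicate (Multiset.card M2) (orderOf ((Fintype.card F : ℕ) : ZMod r)) := by
      rw [Multiset.eq_replicate]
      refine ⟨Multiset.card_map _ _, ?_⟩
      intro d hd
      obtain ⟨P, hP, rfl⟩ := Multiset.mem_map.mp hd
      exact hM2deg P hP
    rw [h1, Multiset.sum_replicate, smul_eq_mul]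
  have hdeg : n = k + Multiset.card M2 * orderOf ((Fintype.card F : ℕ) : ZMod r) := by
    have h1 : x.charpoly.natDegree = n := by
      rw [Matrix.charpoly_natDegree_eq_dim, Fintype.card_fin]
    rw [← h1, hχeq, natDegree_mul (pow_ne_zero _ hLne) hgne, natDegree_pow, hdegg, hL,
      natDegree_X_sub_C, mul_one]
  have hcard1 : Multiset.card M2 = 1 := by
    have h1 : Multiset.card M2 * orderOf ((Fintype.card F : ℕ) : ZMod r) =
        1 * orderOf ((Fintype.card F : ℕ) : ZMod r) := by omega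
    exact Nat.eq_of_mul_eq_mul_right (by omega) h1
  obtain ⟨g, hg⟩ := Multiset.card_eq_one.mp hcard1
  have hgM2 : g ∈ M2 := by
    rw [hg]
    exact Multiset.mem_singleton_self g
  rw [hg, Multiset.prod_singleton] at hχeq
  have hgdvd : g ∣ X ^ r - C (1 : F) :=
    Cfsg.Agent.S2568.dvd_of_mem_nf_charpoly x _
      (by rw [map_sub, map_pow, aeval_X, aeval_C, map_one, hx, sub_self]) g (hM2mem g hgM2).1
  have hgS : g ∈ S := by
    rcases (hdiv g (hM2irr g hgM2) (hM2mon g hgM2)).mp hgdvd with h | h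
    · exact absurd (h.trans hL.symm) (hM2mem g hgM2).2
    · exact h
  have hstarL : rstar φ L = L := by
    rw [hL]
    exact rstar_X_sub_one φ
  have hstar : rstar φ g = g := by
    rw [hχeq, rstar_mul, Cfsg.Agent.Lib.Helper40.GUReal.rstar_pow, hstarL] at hself
    exact mul_left_cancel₀ (pow_ne_zero k hLne) hself
  exact (hSfix g hgS).mp hstar

end Cfsg.Agent.Lib.Helper57.UnitBADUPOLY
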