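import Mathlib
import Cfsg.Agent.Lib.Helper41.UnitStmt

/-!
# S5982 / IDXU1 : `[SL : SL ∩ Δ] * |GU_n(q₀)| * (q₀ - 1)` divides `|GL_n(F)|`
(assuming the piece `Form`).
-/

set_option autoImplicit false
universe u
open scoped MatrixGroups

namespace Cfsg.Agent.Lib.Helper57.UnitIDXU1

open Cfsg.Agent.Lib.Helper40.HermAdj

/-- In a finite group, the relative index of `H` in a normal subgroup `K` divides the index
of `H`. -/
theorem relIndex_dvd_index_of_normal_right {G : Type*} [Group G] [Finite G]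
    (H K : Subgroup G) [K.Normal] : H.relIndex K ∣ H.index := by
  have h1 : H.relIndex (H ⊔ K) ∣ H.index := Subgroup.relIndex_dvd_index_of_le le_sup_left
  have h2 : H.relIndex (H ⊔ K) = H.relIndex K := by
    have a1 := Subgroup.relIndex_mul_relIndex ⊥ (H ⊓ K) K bot_le inf_le_right
    rw [Subgroup.relIndex_bot_left, Subgroup.relIndex_bot_left, Subgroup.inf_relIndex_right] at a1
    have a2 := Subgroup.relIndex_mul_relIndex ⊥ (H ⊓ K) H bot_le inf_le_left
    rw [Subgroup.relIndex_bot_left, Subgroup.relIndex_bot_left, Subgroup.inf_relIndex_left] at a2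
    have a3 := Subgroup.relIndex_mul_relIndex ⊥ K (H ⊔ K) bot_le le_sup_right
    rw [Subgroup.relIndex_bot_left, Subgroup.relIndex_bot_left, Subgroup.relIndex_sup_right] at a3
    have a4 := Subgroup.relIndex_mul_relIndex ⊥ H (H ⊔ K) bot_le le_sup_left
    rw [Subgroup.relIndex_bot_left, Subgroup.relIndex_bot_left] at a4
    have hpos : 0 < Nat.card H := Nat.card_pos
    have h5 : Nat.card H * H.relIndex (H ⊔ K) = Nat.card H * H.relIndex K := by
      rw [a4, ← a3, ← a1, ← a2]
      ring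
    exact Nat.eq_of_mul_eq_mul_left hpos h5
  rw [← h2]
  exact h1

theorem adj_smul_one {F : Type*} [Field F] {n : ℕ} (φ : F →+* F) (a : F) :
    adj φ (a • (1 : Matrix (Fin n) (Fin n) F)) = φ a • (1 : Matrix (Fin n) (Fin n) F) := by
  ext i j
  rw [adj_apply, Matrix.smul_apply, Matrix.smul_apply, Matrix.one_apply, Matrix.one_apply,
    smul_eq_mul, smul_eq_mul]
  by_cases h : i = j
  · subst h
    simp
  · rw [if_neg h, if_neg (Ne.symm h)]
    simp

theorem main (hForm : Cfsg.Agent.Lib.Helper41.UnitStmt.Form.{u}) :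
    Cfsg.Agent.Lib.Helper41.UnitStmt.IdxU1.{u} := by
  intro F _ _ q₀ hcard n hn f hf
  classical
  obtain ⟨φ, hφ, -, -⟩ := exists_phi hcard
  obtain ⟨Z, hZ, hmem⟩ := hForm F q₀ hcard φ hφ n f hf
  set Δ := Cfsg.Geo.similarityGroup f with hΔ
  set SL := Cfsg.Geo.specialLinear (Fin n) F with hSL
  haveI : SL.Normal := by
    rw [hSL]
    unfold Cfsg.Geo.specialLinear
    infer_instance
  have key : Nat.card (Cfsg.GU n F q₀) * (q₀ - 1) ∣ Nat.card Δ := by
    let Zu : GL (Fin n) F := Matrix.nonsingInvUnit Z hZ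
    have hZu : (Zu : Matrix (Fin n) (Fin n) F) = Z := rfl
    let sc : Fˣ →* GL (Fin n) F :=
      Units.map (Matrix.scalar (Fin n) : F →+* Matrix (Fin n) (Fin n) F).toMonoidHom
    have hsc : ∀ c : Fˣ, ((sc c : GL (Fin n) F) : Matrix (Fin n) (Fin n) F) =
        (c : F) • (1 : Matrix (Fin n) (Fin n) F) := by
      intro c
      show Matrix.scalar (Fin n) (c : F) = _
      rw [Matrix.smul_one_eq_diagonal]
      rfl
    have hcomm : ∀ (B : Cfsg.GU n F q₀) (c : Fˣ),
        Commute ((Cfsg.GU n F q₀).subtype B) (sc c) := by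
      intro B c
      apply Units.ext
      rw [Units.val_mul, Units.val_mul, hsc, Matrix.mul_smul, Matrix.smul_mul, Matrix.mul_one,
        Matrix.one_mul]
    let ψ₀ : (Cfsg.GU n F q₀) × Fˣ →* GL (Fin n) F :=
      MonoidHom.noncommCoprod (Cfsg.GU n F q₀).subtype sc hcomm
    let ψ : (Cfsg.GU n F q₀) × Fˣ →* GL (Fin n) F := (MulAut.conj Zu⁻¹).toMonoidHom.comp ψ₀
    have hψ : ∀ (B : Cfsg.GU n F q₀) (c : Fˣ),
        ψ (B, c) = Zu⁻¹ * ((B : GL (Fin n) F) * sc c) * Zu := by
      intro B c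
      show Zu⁻¹ * ((B : GL (Fin n) F) * sc c) * Zu⁻¹⁻¹ = _
      rw [inv_inv]
    have hrange : ψ.range = Δ := by
      ext g
      rw [hΔ, hmem g, MonoidHom.mem_range]
      constructor
      · rintro ⟨⟨B, c⟩, rfl⟩
        refine ⟨(c : F), ((B : GL (Fin n) F) : Matrix (Fin n) (Fin n) F), c.ne_zero,
          (mem_GU_iff φ hφ _).mp B.2, ?_⟩
        rw [hψ]
        have h1 : Zu * (Zu⁻¹ * ((B : GL (Fin n) F) * sc c) * Zu) =
            ((B : GL (Fin n) F) * sc c) * Zu := by group
        rw [← hZu, ← Units.val_mul, h1, Units.val_mul, Units.val_mul, hsc, Matrix.mul_smul,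
          Matrix.mul_one]
      · rintro ⟨c, B, hc, hB, hZg⟩
        have hB' : B * adj φ B = 1 := mul_eq_one_comm.mp hB
        let Bu : GL (Fin n) F := ⟨B, adj φ B, hB', hB⟩
        have hBu : Bu ∈ Cfsg.GU n F q₀ := (mem_GU_iff φ hφ Bu).mpr hB
        refine ⟨(⟨Bu, hBu⟩, Units.mk0 c hc), ?_⟩
        rw [hψ]
        have h3 : Zu * g = (Bu * sc (Units.mk0 c hc)) * Zu := by
          apply Units.ext
          rw [Units.val_mul, Units.val_mul, Units.val_mul, hsc, hZu, hZg]
          show (c • B) * Z = B * (c • (1 : Matrix (Fin n) (Fin n) F)) * Z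
          rw [Matrix.mul_smul, Matrix.mul_one]
        show Zu⁻¹ * (Bu * sc (Units.mk0 c hc)) * Zu = g
        rw [mul_assoc, ← h3]
        group
    have hker : ∀ (B : Cfsg.GU n F q₀) (c : Fˣ), ψ (B, c) = 1 →
        (B : GL (Fin n) F) = (sc c)⁻¹ := by
      intro B c h
      rw [hψ] at h
      have h2 : (B : GL (Fin n) F) * sc c = 1 := by
        have h3 : (B : GL (Fin n) F) * sc c =
            Zu * (Zu⁻¹ * ((B : GL (Fin n) F) * sc c) * Zu) * Zu⁻¹ := by group
        rw [h3, h]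
        group
      exact eq_inv_of_mul_eq_one_left h2
    let π : ψ.ker →* Fˣ := (MonoidHom.snd _ _).comp ψ.ker.subtype
    have hπinj : Function.Injective π := by
      rintro ⟨⟨B, c⟩, hx⟩ ⟨⟨B', c'⟩, hy⟩ h
      have hc : c = c' := h
      subst hc
      have e1 := hker B c (MonoidHom.mem_ker.mp hx)
      have e2 := hker B' c (MonoidHom.mem_ker.mp hy)
      have hBB : B = B' := Subtype.ext (e1.trans e2.symm)
      subst hBB
      rfl
    haveI : IsCyclic ψ.ker := isCyclic_of_injective π hπinj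
    have hpow : ∀ x : ψ.ker, x ^ (q₀ + 1) = 1 := by
      intro x
      apply hπinj
      rw [map_pow, map_one]
      obtain ⟨⟨B, c⟩, hx⟩ := x
      show c ^ (q₀ + 1) = 1
      have e1 := hker B c (MonoidHom.mem_ker.mp hx)
      have hB := (mem_GU_iff φ hφ (B : GL (Fin n) F)).mp B.2
      rw [e1] at hB
      have hv : (((sc c)⁻¹ : GL (Fin n) F) : Matrix (Fin n) (Fin n) F) =
          ((c⁻¹ : Fˣ) : F) • (1 : Matrix (Fin n) (Fin n) F) := by
        rw [← map_inv, hsc]
      rw [hv, adj_smul_one, Matrix.smul_mul, Matrix.mul_smul, Matrix.mul_one, smul_smul] at hB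
      have h00 := congrFun (congrFun hB ⟨0, hn⟩) ⟨0, hn⟩
      rw [Matrix.smul_apply, Matrix.one_apply_eq, smul_eq_mul, mul_one, hφ, ← pow_succ] at h00
      have h5 : ((c⁻¹) ^ (q₀ + 1) : Fˣ) = 1 := by
        apply Units.ext
        rw [Units.val_pow_eq_pow_val, Units.val_one]
        exact h00
      rw [inv_pow, inv_eq_one] at h5
      exact h5
    have hk : Nat.card ψ.ker ∣ q₀ + 1 := by
      rw [← IsCyclic.exponent_eq_card]
      exact Monoid.exponent_dvd_of_forall_pow_eq_one hpow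
    have hcount : Nat.card ψ.ker * Nat.card Δ = Nat.card (Cfsg.GU n F q₀) * (q₀ ^ 2 - 1) := by
      have h1 := Subgroup.card_mul_index ψ.ker
      rw [Subgroup.index_ker, hrange, Nat.card_prod, Nat.card_units,
        Nat.card_eq_fintype_card (α := F), hcard] at h1
      exact h1
    obtain ⟨e, he⟩ := hk
    have hq0 : 1 ≤ q₀ := by
      rcases Nat.eq_zero_or_pos q₀ with h0 | h0
      · exfalso
        rw [h0] at hcard
        have h3 : 1 < Fintype.card F := Fintype.one_lt_card
        rw [hcard] at h3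
        norm_num at h3
      · exact h0
    have hq : q₀ ^ 2 - 1 = (q₀ - 1) * (q₀ + 1) := by
      obtain ⟨t, rfl⟩ : ∃ t, q₀ = t + 1 := ⟨q₀ - 1, by omega⟩
      rw [Nat.add_sub_cancel]
      have h4 : (t + 1) ^ 2 = t * (t + 1 + 1) + 1 := by ring
      rw [h4, Nat.add_sub_cancel]
    rw [hq, he] at hcount
    have hkpos : 0 < Nat.card ψ.ker := Nat.card_pos
    refine ⟨e, ?_⟩
    apply Nat.eq_of_mul_eq_mul_left hkpos
    rw [hcount]
    ring
  have h1 : Δ.relIndex SL ∣ Δ.index := relIndex_dvd_index_of_normal_right Δ SL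
  have h2 : Nat.card Δ * Δ.index = Nat.card (GL (Fin n) F) := Subgroup.card_mul_index Δ
  rw [← h2, mul_comm (Nat.card Δ)]
  exact mul_dvd_mul h1 key

end Cfsg.Agent.Lib.Helper57.UnitIDXU1
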